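import Cfsg.Agent.H951.JT
/-!
# Isometries of order `p` and skew nilpotent operators (Cayley transform)
-/

set_option autoImplicit false
set_option linter.unusedSectionVars false
set_option linter.unusedVariables false

namespace Cfsg.Agent.H951

open Module Polynomial

variable {F V : Type*} [Field F] [AddCommGroup V] [Module F V] [FiniteDimensional F V]
variable {σ : F →+* F} {ε : F} {B : V → V → F} {N : Module.End F V} {y : Module.End F V} {W : Submodule F V} {p : ℕ}

/-- The endomorphism ring has characteristic `p`, in the form needed here. -/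
lemma add_pow_p [hp : Fact p.Prime] [CharP F p] {a b : Module.End F V} (h : Commute a b) : (a + b) ^ p = a ^ p + b ^ p := by
  rcases subsingleton_or_nontrivial V with hV | hV
  · exact LinearMap.ext fun v => Subsingleton.elim _ _
  · have : CharP (Module.End F V) p := charP_of_injective_algebraMap (algebraMap F (Module.End F V)).injective p
    exact add_pow_char_of_commute p h

lemma sub_pow_p [hp : Fact p.Prime] [CharP F p] {a b : Module.End F V} (h : Commute a b) : (a - b) ^ p = a ^ p - b ^ p := by
  rcases subsingleton_or_nontrivial V with hV | hV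
  · exact LinearMap.ext fun v => Subsingleton.elim _ _
  · have : CharP (Module.End F V) p := charP_of_injective_algebraMap (algebraMap F (Module.End F V)).injective p
    exact sub_pow_char_of_commute p h

/-- `p` odd: a skew `N` with `N^p = 0` gives an isometry `y` of order dividing `p` with the same invariant
subspaces. -/
theorem exists_isom_of_skew_odd [Fact p.Prime] [CharP F p] (hp2 : p ≠ 2) (hB : Frm σ ε B) (hN : Skew B N) (hNp : N ^ p = 0) :
    ∃ y : Module.End F V, Isom B y ∧ y ^ p = 1 ∧ (∀ W, Inv y W ↔ Inv N W) ∧ (y = 1 → N = 0) := by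
  have hpP : p.Prime := Fact.out
  have h2 : (2 : F) ≠ 0 := by
    intro h
    have h3 : ((2 : ℕ) : F) = 0 := by exact_mod_cast h
    rw [CharP.cast_eq_zero_iff F p] at h3
    exact hp2 ((Nat.prime_dvd_prime_iff_eq hpP Nat.prime_two).1 h3)
  set S : Module.End F V := ∑ i ∈ Finset.range p, N ^ i with hS
  have hS1 : (1 - N) * S = 1 := by
    have := mul_neg_geom_sum N p
    rw [hNp, sub_zero] at this
    exact this
  have hS2 : S * (1 - N) = 1 := by
    have := geom_sum_mul_neg N p
    rw [hNp, sub_zero] at this
    exact this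
  set y := (1 + N) * S with hy
  have hyN : y * (1 - N) = 1 + N := by rw [hy, mul_assoc, hS2, mul_one]
  have hcS : Commute (1 + N) S := by
    have : Commute N S := by
      rw [hS]
      exact Commute.sum_right _ _ _ fun i _ => Commute.pow_right rfl i
    exact (Commute.one_left S).add_left this
  have hsurj : ∀ v, ∃ u, v = (1 - N) u := fun v => ⟨S v, by
    rw [← Module.End.mul_apply, hS1]; rfl⟩
  have hyp : y ^ p = 1 := by
    have e1 : (1 + N) ^ p = 1 := by
      rw [add_pow_p (Commute.one_left N), one_pow, hNp, add_zero]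
    have e2 : (1 - N) ^ p = 1 := by
      rw [sub_pow_p (Commute.one_left N), one_pow, hNp, sub_zero]
    have e3 : S ^ p = 1 := by
      have h3 : ((1 - N) * S) ^ p = (1 - N) ^ p * S ^ p := by
        apply Commute.mul_pow
        rw [Commute, SemiconjBy, hS1, hS2]
      rw [hS1, one_pow, e2, one_mul] at h3
      exact h3.symm
    rw [hy, hcS.mul_pow, e1, e3, one_mul]
  have hrel : (1 + y) * N = y - 1 := by
    have h3 : y - y * N = 1 + N := by rw [← hyN, mul_sub, mul_one]
    rw [sub_eq_iff_eq_add] at h3
    rw [add_mul, one_mul, eq_sub_iff_add_eq]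
    calc N + y * N + 1 = 1 + N + y * N := by abel
      _ = y := h3.symm
  refine ⟨y, ?_, hyp, ?_, ?_⟩
  · intro u v
    obtain ⟨a, rfl⟩ := hsurj u
    obtain ⟨b, rfl⟩ := hsurj v
    rw [← Module.End.mul_apply, ← Module.End.mul_apply, hyN]
    simp only [LinearMap.add_apply, LinearMap.sub_apply, Module.End.one_apply]
    simp only [hB.add_left, hB.add_right, hB.sub_left, hB.sub_right, hN a b, hN a (N b)]
    ring
  · intro W
    constructor
    · intro hW
      -- N is a polynomial in y: (1 + y) T = 2 with T = Σ (-y)^i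
      set T : Module.End F V := ∑ i ∈ Finset.range p, (-y) ^ i with hT
      have hodd : Odd p := hpP.odd_of_ne_two hp2
      have hT1 : T * (1 + y) = (2 : F) • (1 : Module.End F V) := by
        have := geom_sum_mul_neg (-y) p
        rw [sub_neg_eq_add, hodd.neg_pow, hyp, sub_neg_eq_add] at this
        rw [this, two_smul]
      have hTW : Inv T W := by
        intro v hv
        rw [hT, LinearMap.sum_apply]
        refine W.sum_mem fun i _ => ?_
        have hny : Inv (-y) W := fun w hw => W.neg_mem (hW w hw)
        exact hny.pow i v hv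
      intro v hv
      have h3 : (2 : F) • N v = T ((y - 1) v) := by
        rw [← hrel, ← Module.End.mul_apply, ← mul_assoc, hT1]
        rfl
      have h4 : (2 : F) • N v ∈ W := by
        rw [h3]
        exact hTW _ (W.sub_mem (hW v hv) hv)
      have := W.smul_mem (2 : F)⁻¹ h4
      rwa [smul_smul, inv_mul_cancel₀ h2, one_smul] at this
    · intro hW v hv
      have hSv : S v ∈ W := by
        rw [hS, LinearMap.sum_apply]
        exact W.sum_mem fun i _ => hW.pow i v hv
      rw [hy, Module.End.mul_apply]
      exact W.add_mem hSv (hW _ hSv)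
  · intro h
    rw [h, sub_self] at hrel
    have h3 : (2 : F) • N = 0 := by
      rw [← hrel]
      rw [two_smul, add_mul, one_mul]
    exact (smul_eq_zero.1 h3).resolve_left h2

/-- Conversely. -/
theorem exists_skew_of_isom_odd [Fact p.Prime] [CharP F p] (hp2 : p ≠ 2) (hB : Frm σ ε B) (hy : Isom B y) (hyp : y ^ p = 1) :
    ∃ N : Module.End F V, Skew B N ∧ N ^ p = 0 ∧ (∀ W, Inv y W ↔ Inv N W) := by
  have hpP : p.Prime := Fact.out
  have h2 : (2 : F) ≠ 0 := by
    intro h
    have h3 : ((2 : ℕ) : F) = 0 := by exact_mod_cast h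
    rw [CharP.cast_eq_zero_iff F p] at h3
    exact hp2 ((Nat.prime_dvd_prime_iff_eq hpP Nat.prime_two).1 h3)
  have hodd : Odd p := hpP.odd_of_ne_two hp2
  set T : Module.End F V := ∑ i ∈ Finset.range p, (-y) ^ i with hT
  have hT1 : T * (1 + y) = (2 : F) • (1 : Module.End F V) := by
    have := geom_sum_mul_neg (-y) p
    rw [sub_neg_eq_add, hodd.neg_pow, hyp, sub_neg_eq_add] at this
    rw [this, two_smul]
  have hT2 : (1 + y) * T = (2 : F) • (1 : Module.End F V) := by
    have := mul_neg_geom_sum (-y) p
    rw [sub_neg_eq_add, hodd.neg_pow, hyp, sub_neg_eq_add] at this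
    rw [this, two_smul]
  have hcT : Commute y T := by
    rw [hT]
    exact Commute.sum_right _ _ _ fun i _ => ((Commute.refl y).neg_right).pow_right i
  set N : Module.End F V := (2 : F)⁻¹ • (T * (y - 1)) with hN
  have hrel : (1 + y) * N = y - 1 := by
    rw [hN, mul_smul_comm, ← mul_assoc, hT2, smul_mul_assoc, one_mul, smul_smul, inv_mul_cancel₀ h2, one_smul]
  have hsurj : ∀ v, ∃ u, v = (1 + y) u := fun v => ⟨(2 : F)⁻¹ • T v, by
    rw [map_smul, ← Module.End.mul_apply, hT2, LinearMap.smul_apply, smul_smul, inv_mul_cancel₀ h2, one_smul]; rfl⟩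
  have hcN : Commute (1 + y) N := by
    rw [hN]
    apply Commute.smul_right
    apply Commute.mul_right
    · exact (Commute.one_left T).add_left hcT
    · exact (Commute.one_left _).add_left ((Commute.refl y).sub_right (Commute.one_right y))
  have hNr : N * (1 + y) = y - 1 := by rw [← hcN.eq, hrel]
  have hNp : N ^ p = 0 := by
    have e1 : ((1 + y) * N) ^ p = (1 + y) ^ p * N ^ p := hcN.mul_pow p
    have e2 : (y - 1) ^ p = 0 := by
      rw [sub_pow_p (Commute.one_right y), hyp, one_pow, sub_self]
    have e3 : (1 + y) ^ p = (2 : F) • 1 := by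
      rw [add_pow_p (Commute.one_left y), hyp, one_pow, two_smul]
    rw [hrel, e2, e3, smul_mul_assoc, one_mul] at e1
    exact (smul_eq_zero.1 e1.symm).resolve_left h2
  refine ⟨N, ?_, hNp, ?_⟩
  · intro u v
    obtain ⟨a, rfl⟩ := hsurj u
    obtain ⟨b, rfl⟩ := hsurj v
    rw [← Module.End.mul_apply, ← Module.End.mul_apply, hNr]
    simp only [LinearMap.add_apply, LinearMap.sub_apply, Module.End.one_apply]
    simp only [hB.add_left, hB.add_right, hB.sub_left, hB.sub_right, hy a b]
    ring
  · intro W
    constructor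
    · intro hW
      have hTW : Inv T W := by
        intro v hv
        rw [hT, LinearMap.sum_apply]
        refine W.sum_mem fun i _ => ?_
        have hny : Inv (-y) W := fun w hw => W.neg_mem (hW w hw)
        exact hny.pow i v hv
      intro v hv
      rw [hN, LinearMap.smul_apply, Module.End.mul_apply]
      exact W.smul_mem _ (hTW _ (W.sub_mem (hW v hv) hv))
    · intro hW v hv
      set S : Module.End F V := ∑ i ∈ Finset.range p, N ^ i with hS
      have hS1 : (1 - N) * S = 1 := by
        have := mul_neg_geom_sum N p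
        rw [hNp, sub_zero] at this
        exact this
      -- y (1 - N) = 1 + N
      have h3 : y * (1 - N) = 1 + N := by
        have h4 : N + y * N = y - 1 := by rw [← hrel, add_mul, one_mul]
        rw [eq_sub_iff_add_eq] at h4
        rw [mul_sub, mul_one, sub_eq_iff_eq_add]
        calc y = N + y * N + 1 := h4.symm
          _ = 1 + N + y * N := by abel
      have h4 : y = (1 + N) * S := by rw [← h3, mul_assoc, hS1, mul_one]
      have hSv : S v ∈ W := by
        rw [hS, LinearMap.sum_apply]
        exact W.sum_mem fun i _ => hW.pow i v hv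
      rw [h4, Module.End.mul_apply]
      exact W.add_mem hSv (hW _ hSv)

lemma inv_one_add_iff : Inv (1 + N) W ↔ Inv N W := by
  constructor
  · intro h v hv
    have := W.sub_mem (h v hv) hv
    rw [LinearMap.add_apply, Module.End.one_apply, add_sub_cancel_left] at this
    exact this
  · intro h v hv
    exact W.add_mem hv (h v hv)

/-- Characteristic 2. -/
theorem exists_isom_of_skew_two [CharP F 2] (hB : Frm σ ε B) (hN : Skew B N) (hNp : N ^ 2 = 0) :
    ∃ y : Module.End F V, Isom B y ∧ y ^ 2 = 1 ∧ (∀ W, Inv y W ↔ Inv N W) ∧ (y = 1 → N = 0) := by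
  refine ⟨1 + N, ?_, ?_, fun W => inv_one_add_iff, fun h => by simpa using h⟩
  · intro u v
    have h1 : B (N u) (N v) = 0 := by
      rw [hN, ← Module.End.mul_apply, ← pow_two, hNp, LinearMap.zero_apply, hB.zero_right, neg_zero]
    simp only [LinearMap.add_apply, Module.End.one_apply, hB.add_left, hB.add_right, h1, hN u v]
    ring
  · have : Fact (Nat.Prime 2) := ⟨Nat.prime_two⟩
    rw [add_pow_p (p := 2) (Commute.one_left N), hNp, one_pow, add_zero]

theorem exists_skew_of_isom_two [CharP F 2] (hB : Frm σ ε B) (hy : Isom B y) (hyp : y ^ 2 = 1) :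
    ∃ N : Module.End F V, Skew B N ∧ N ^ 2 = 0 ∧ (∀ W, Inv y W ↔ Inv N W) := by
  have h2 : (2 : F) = 0 := by
    have := CharP.cast_eq_zero F 2
    exact_mod_cast this
  refine ⟨y - 1, ?_, ?_, fun W => ?_⟩
  · intro u v
    have h1 : B (y u) v = B u (y v) := by
      have h3 : y (y v) = v := by rw [← Module.End.mul_apply, ← pow_two, hyp]; rfl
      conv_lhs => rw [← h3]
      rw [hy]
    simp only [LinearMap.sub_apply, Module.End.one_apply, hB.sub_left, hB.sub_right, h1]
    linear_combination (B u (y v) - B u v) * h2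
  · have : Fact (Nat.Prime 2) := ⟨Nat.prime_two⟩
    rw [sub_pow_p (p := 2) (Commute.one_right y), hyp, one_pow, sub_self]
  · have h3 := inv_one_add_iff (N := y - 1) (W := W)
    rwa [add_sub_cancel] at h3

/-- All characteristics. -/
theorem exists_isom_of_skew [Fact p.Prime] [CharP F p] (hB : Frm σ ε B) (hN : Skew B N) (hNp : N ^ p = 0) :
    ∃ y : Module.End F V, Isom B y ∧ y ^ p = 1 ∧ (∀ W, Inv y W ↔ Inv N W) ∧ (y = 1 → N = 0) := by
  by_cases hp : p = 2
  · subst hp; exact exists_isom_of_skew_two hB hN hNp
  · exact exists_isom_of_skew_odd hp hB hN hNp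

theorem exists_skew_of_isom [Fact p.Prime] [CharP F p] (hB : Frm σ ε B) (hy : Isom B y) (hyp : y ^ p = 1) :
    ∃ N : Module.End F V, Skew B N ∧ N ^ p = 0 ∧ (∀ W, Inv y W ↔ Inv N W) := by
  by_cases hp : p = 2
  · subst hp; exact exists_skew_of_isom_two hB hy hyp
  · exact exists_skew_of_isom_odd hp hB hy hyp

end Cfsg.Agent.H951
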