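import Cfsg.Agent.H951.UNum
/-!
# Isometries whose `r`-th power is a scalar: determinants, and monomial examples
-/

set_option autoImplicit false
set_option linter.unusedSectionVars false
set_option linter.unusedVariables false

namespace Cfsg.Agent.H951

open Module Polynomial Cfsg

/-- The determinant of `T` with `T^r = z` not an `r`-th power. -/
theorem det_of_pow_eq {F V : Type*} [Field F] [AddCommGroup V] [Module F V] [FiniteDimensional F V]
    {T : Module.End F V} {z : F} {r : ℕ} (hr : r.Prime) (hz : ∀ b : F, b ^ r ≠ z) (hT : T ^ r = z • 1) :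
    ∃ k, finrank F V = r * k ∧ LinearMap.det T = ((-1) ^ (r - 1) * z) ^ k := by
  set f : F[X] := X ^ r - C z with hf
  have hirr : Irreducible f := X_pow_sub_C_irreducible_of_prime hr hz
  have hfm : f.Monic := monic_X_pow_sub_C z hr.ne_zero
  have hfd : f.natDegree = r := natDegree_X_pow_sub_C
  have : Fact (Irreducible f) := ⟨hirr⟩
  have haev : aeval T f = 0 := by
    rw [hf, map_sub, map_pow, aeval_X, aeval_C, hT, sub_eq_zero]
    rfl
  have hM : Module.IsTorsionBySet F[X] (Module.AEval' T) (Ideal.span {f} : Ideal F[X]) := by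
    rw [Module.isTorsionBySet_span_singleton_iff]
    intro m
    obtain ⟨v, rfl⟩ := (Module.AEval'.of T).surjective m
    have : f • (Module.AEval'.of T v) = Module.AEval'.of T ((aeval T f) v) := rfl
    rw [this, haev, LinearMap.zero_apply, map_zero]
  let _ : Module (AdjoinRoot f) (Module.AEval' T) := hM.module
  have : IsScalarTower F (AdjoinRoot f) (Module.AEval' T) := hM.isScalarTower
  have : Module.Finite F (AdjoinRoot f) := hfm.finite_adjoinRoot
  have : FiniteDimensional F (Module.AEval' T) := Module.Finite.equiv (Module.AEval'.of T)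
  have : Module.Finite (AdjoinRoot f) (Module.AEval' T) := Module.Finite.right F _ _
  have hE : finrank F (AdjoinRoot f) = r := by
    rw [(AdjoinRoot.powerBasis hirr.ne_zero).finrank, AdjoinRoot.powerBasis_dim, hfd]
  have hroot : ∀ v : V, (AdjoinRoot.root f) • (Module.AEval'.of T v) = Module.AEval'.of T (T v) := fun v =>
    (Module.IsTorsionBySet.mk_smul hM X _).trans (Module.AEval'.X_smul_of T v)
  let D : Module.AEval' T →ₗ[AdjoinRoot f] Module.AEval' T := (AdjoinRoot.root f) • LinearMap.id
  have hD : (D.restrictScalars F) = (Module.AEval'.of T).conj T := by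
    ext m
    obtain ⟨v, rfl⟩ := (Module.AEval'.of T).surjective m
    rw [LinearEquiv.conj_apply_apply, LinearEquiv.symm_apply_apply]
    exact hroot v
  have h1 : LinearMap.det (D.restrictScalars F) = LinearMap.det T := by
    rw [hD]
    exact LinearMap.det_conj T (Module.AEval'.of T)
  have h2 : LinearMap.det D = AdjoinRoot.root f ^ finrank (AdjoinRoot f) (Module.AEval' T) := by
    rw [LinearMap.det_smul, LinearMap.det_id, mul_one]
  refine ⟨finrank (AdjoinRoot f) (Module.AEval' T), ?_, ?_⟩
  · rw [← hE, Module.finrank_mul_finrank]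
    exact (Module.AEval'.of T).finrank_eq
  · rw [← h1, LinearMap.det_restrictScalars, h2, map_pow]
    congr 1
    have h3 := Algebra.PowerBasis.norm_gen_eq_coeff_zero_minpoly (AdjoinRoot.powerBasis hirr.ne_zero)
    rw [AdjoinRoot.powerBasis_gen, AdjoinRoot.powerBasis_dim, hfd, AdjoinRoot.minpoly_root hirr.ne_zero,
      hfm.leadingCoeff, inv_one, map_one, mul_one] at h3
    rw [h3, hf]
    obtain ⟨s, hs⟩ : ∃ s, r = s + 1 := ⟨r - 1, by have := hr.pos; omega⟩
    subst hs
    simp [pow_succ]

/-- Invariant subspaces have dimension divisible by `r`. -/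
theorem dvd_finrank_of_pow_eq {F V : Type*} [Field F] [AddCommGroup V] [Module F V] [FiniteDimensional F V]
    {T : Module.End F V} {z : F} {r : ℕ} (hr : r.Prime) (hz : ∀ b : F, b ^ r ≠ z) (hT : T ^ r = z • 1)
    {W : Submodule F V} (hW : Inv T W) : r ∣ finrank F W := by
  let T' : Module.End F W := LinearMap.restrict T hW
  have h1 : ∀ (n : ℕ) (w : W), ((T' ^ n) w : V) = (T ^ n) w := by
    intro n
    induction n with
    | zero => intro w; rfl
    | succ n ih =>
      intro w
      rw [pow_succ, pow_succ, Module.End.mul_apply, Module.End.mul_apply, ih]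
      rfl
  have h2 : T' ^ r = z • 1 := by
    ext w
    rw [h1, hT]
    rfl
  obtain ⟨k, hk, -⟩ := det_of_pow_eq hr hz h2
  exact ⟨k, hk⟩

section mono

variable {F : Type*} [Field F] {q : ℕ}

/-- The operator `v ↦ (i ↦ a i * v (π i))`. -/
def mono {ι : Type*} (a : ι → F) (π : Equiv.Perm ι) : Module.End F (ι → F) where
  toFun v i := a i * v (π i)
  map_add' u v := by ext i; simp [mul_add]
  map_smul' c v := by ext i; simp; ring

lemma mono_apply {ι : Type*} (a : ι → F) (π : Equiv.Perm ι) (v : ι → F) (i : ι) : mono a π v i = a i * v (π i) := rfl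

lemma mono_pow {ι : Type*} (a : ι → F) (π : Equiv.Perm ι) (k : ℕ) (v : ι → F) (i : ι) :
    (mono a π ^ k) v i = (∏ t ∈ Finset.range k, a ((π ^ t) i)) * v ((π ^ k) i) := by
  induction k generalizing v with
  | zero => simp
  | succ k ih =>
    rw [pow_succ, Module.End.mul_apply, ih, mono_apply, Finset.prod_range_succ, pow_succ' π]
    simp only [Equiv.Perm.mul_apply]
    ring

lemma mono_det {ι : Type*} [Fintype ι] [DecidableEq ι] (a : ι → F) (π : Equiv.Perm ι) :
    LinearMap.det (mono a π) = (∏ i, a i) * ((Equiv.Perm.sign π : ℤ) : F) := by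
  have h : mono a π = Matrix.toLin' (Matrix.diagonal a * π.permMatrix F) := by
    ext v i
    simp only [LinearMap.comp_apply]
    rw [Matrix.toLin'_apply, ← Matrix.mulVec_mulVec, Matrix.permMatrix_mulVec, Matrix.mulVec_diagonal, mono_apply]
    rfl
  rw [h, LinearMap.det_toLin', Matrix.det_mul, Matrix.det_diagonal, Matrix.det_permutation]

lemma mono_isom {n : ℕ} (a : Fin n → F) (ha : ∀ i, a i ^ (q + 1) = 1) (π : Equiv.Perm (Fin n)) :
    Isom (hermForm n F q) (mono a π) := by
  intro u v
  simp only [hermForm, mono_apply]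
  rw [← Equiv.sum_comp π (fun i => u i * v i ^ q)]
  refine Finset.sum_congr rfl fun i _ => ?_
  have := ha i
  rw [pow_succ'] at this
  rw [mul_pow]
  linear_combination (u (π i) * v (π i) ^ q) * this

open Fin.NatCast in
/-- A monomial isometry with `T^r = z`. -/
theorem exists_monomial {z : F} (hz : z ^ (q + 1) = 1) {r : ℕ} (hr : 0 < r) (k : ℕ) :
    ∃ T : Module.End F (Fin (k * r) → F), Isom (hermForm (k * r) F q) T ∧ T ^ r = z • 1 ∧
      LinearMap.det T = ((-1) ^ (r - 1) * z) ^ k := by
  obtain ⟨s, rfl⟩ : ∃ s, r = s + 1 := ⟨r - 1, by omega⟩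
  let e : Fin k × Fin (s + 1) ≃ Fin (k * (s + 1)) := finProdFinEquiv
  let π₀ : Equiv.Perm (Fin k × Fin (s + 1)) := Equiv.prodCongrRight fun _ => finRotate (s + 1)
  let π : Equiv.Perm (Fin (k * (s + 1))) := e.symm.trans (π₀.trans e)
  let a : Fin (k * (s + 1)) → F := fun i => if (e.symm i).2 = 0 then z else 1
  have ha : ∀ i, a i ^ (q + 1) = 1 := by
    intro i
    show (if (e.symm i).2 = 0 then z else 1) ^ (q + 1) = 1
    split_ifs
    · exact hz
    · exact one_pow _
  have hπ₀ : ∀ x : Fin k × Fin (s + 1), π₀ x = (x.1, x.2 + 1) := by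
    intro x
    show (x.1, finRotate (s + 1) x.2) = _
    rw [finRotate_apply]
  have hπ : ∀ (t : ℕ) (x : Fin k × Fin (s + 1)), (π ^ t) (e x) = e (x.1, x.2 + (t : Fin (s + 1))) := by
    intro t
    induction t with
    | zero => intro x; simp
    | succ t ih =>
      intro x
      rw [pow_succ, Equiv.Perm.mul_apply]
      have h1 : π (e x) = e (π₀ x) := by
        show e (π₀ (e.symm (e x))) = _
        rw [e.symm_apply_apply]
      rw [h1, hπ₀, ih]
      push_cast
      rw [add_assoc, add_comm (1 : Fin (s + 1))]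
  refine ⟨mono a π, mono_isom a ha π, ?_, ?_⟩
  · apply LinearMap.ext
    intro v
    funext i
    obtain ⟨x, rfl⟩ := e.surjective i
    rw [mono_pow, hπ]
    have h2 : ((s + 1 : ℕ) : Fin (s + 1)) = 0 := by simp
    rw [h2, add_zero]
    have h3 : ∏ t ∈ Finset.range (s + 1), a ((π ^ t) (e x)) = z := by
      rw [Finset.prod_range]
      have h4 : ∀ t : Fin (s + 1), a ((π ^ (t : ℕ)) (e x)) = if t = -x.2 then z else 1 := by
        intro t
        rw [hπ]
        show (if (e.symm (e (x.1, x.2 + ((t : ℕ) : Fin (s + 1))))).2 = 0 then z else 1) = _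
        rw [e.symm_apply_apply, Fin.cast_val_eq_self]
        simp only
        congr 1
        rw [eq_iff_iff]
        constructor
        · intro h; exact eq_neg_of_add_eq_zero_right h
        · intro h; rw [h, add_neg_cancel]
      rw [Finset.prod_congr rfl fun t _ => h4 t]
      simp
    rw [h3]
    rfl
  · rw [mono_det]
    have h5 : ∏ i, a i = z ^ k := by
      rw [← Equiv.prod_comp e]
      have : ∀ x : Fin k × Fin (s + 1), a (e x) = if x.2 = 0 then z else 1 := by
        intro x
        show (if (e.symm (e x)).2 = 0 then z else 1) = _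
        rw [e.symm_apply_apply]
      rw [Finset.prod_congr rfl fun x _ => this x, Fintype.prod_prod_type]
      simp
    have h6 : Equiv.Perm.sign π = ((-1) ^ s) ^ k := by
      have h7 : Equiv.Perm.sign π = Equiv.Perm.sign π₀ := Equiv.Perm.sign_symm_trans_trans π₀ e
      rw [h7, Equiv.Perm.sign_prodCongrRight]
      simp
    rw [h5, h6]
    push_cast
    rw [mul_pow, mul_comm]

end mono

end Cfsg.Agent.H951
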