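import Cfsg.Agent.H951.SUnip
/-!
# Involutions of `Sp_{2d}(q)`, `q` even, on nondegenerate `m`-spaces
-/

set_option autoImplicit false
set_option linter.unusedSectionVars false
set_option linter.unusedVariables false

namespace Cfsg.Agent.H951

open Module Polynomial Cfsg

section comb

lemma exists_le_card {α : Type*} (μ : Multiset α) {k : ℕ} (hk : k ≤ Multiset.card μ) :
    ∃ ν ≤ μ, Multiset.card ν = k := by
  induction μ using Quotient.inductionOn with
  | _ l =>
    refine ⟨(l.take k : Multiset α), ?_, ?_⟩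
    · exact Multiset.coe_le.2 (List.take_sublist k l).subperm
    · simpa using hk

/-- Types of blocks in characteristic 2. -/
def P2 (s a : ℕ) : Prop := (s = 1 ∧ a = 2) ∨ (s = 2 ∧ a = 2) ∨ (s = 2 ∧ a = 1)

lemma sum_of_two {μ : Multiset (ℕ × ℕ)} (h : ∀ x ∈ μ, x.1 * x.2 = 2) :
    (μ.map fun x => x.1 * x.2).sum = 2 * Multiset.card μ := by
  rw [Multiset.map_congr rfl h, Multiset.map_const', Multiset.sum_replicate, smul_eq_mul, mul_comm]

lemma exists_sub_two {μ : Multiset (ℕ × ℕ)} (hμ : ∀ x ∈ μ, P2 x.1 x.2) {d m : ℕ}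
    (hs : (μ.map fun x => x.1 * x.2).sum = 2 * d) (hme : m % 2 = 0) (hmd : m < d)
    (h : 2 * d % 4 = 2 ∨ m % 4 = 0) : ∃ ν ≤ μ, (ν.map fun x => x.1 * x.2).sum = m := by
  classical
  set A := μ.count (2, 2) with hA
  set R := μ.filter (fun x => x ≠ (2, 2)) with hR
  have hdec : μ = Multiset.replicate A (2, 2) + R := by
    rw [hA, hR, ← Multiset.filter_eq', Multiset.filter_add_not]
  have hR2 : ∀ x ∈ R, x.1 * x.2 = 2 := by
    intro x hx
    rw [hR, Multiset.mem_filter] at hx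
    rcases hμ x hx.1 with ⟨h1, h2⟩ | ⟨h1, h2⟩ | ⟨h1, h2⟩
    · rw [h1, h2]
    · exact absurd (Prod.ext h1 h2) hx.2
    · rw [h1, h2]
  have hs' : 4 * A + 2 * Multiset.card R = 2 * d := by
    rw [hdec, Multiset.map_add, Multiset.sum_add, sum_of_two hR2, Multiset.map_replicate, Multiset.sum_replicate,
      smul_eq_mul] at hs
    omega
  obtain ⟨a', c', ha', hc', hm⟩ : ∃ a' c', a' ≤ A ∧ c' ≤ Multiset.card R ∧ 4 * a' + 2 * c' = m := by
    rcases le_total A (m / 4) with h3 | h3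
    · exact ⟨A, (m - 4 * A) / 2, le_rfl, by omega, by omega⟩
    · rcases h with h | h
      · exact ⟨m / 4, m % 4 / 2, h3, by omega, by omega⟩
      · exact ⟨m / 4, 0, h3, Nat.zero_le _, by omega⟩
  obtain ⟨R', hR', hcard⟩ := exists_le_card R hc'
  refine ⟨Multiset.replicate a' (2, 2) + R', ?_, ?_⟩
  · conv_rhs => rw [hdec]
    exact add_le_add ((Multiset.replicate_le_replicate _).2 ha') hR'
  · rw [Multiset.map_add, Multiset.sum_add, sum_of_two fun x hx => hR2 x (Multiset.mem_of_le hR' hx),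
      Multiset.map_replicate, Multiset.sum_replicate, smul_eq_mul, hcard]
    omega

end comb

section step

variable {F V : Type*} [Field F] [AddCommGroup V] [Module F V] [FiniteDimensional F V]
variable {B : V → V → F} {N : Module.End F V}

theorem step_two (hB : Frm (RingHom.id F) (-1) B) (hK : Kind (RingHom.id F) (-1) B) (hN : Skew B N) (hn : N ^ 2 = 0)
    (W : Submodule F V) (hW : Inv N W) (hWn : Nd B W) (h0 : W ≠ ⊥) :
    ∃ U ≤ W, ∃ s a, (P2 s a ∧ ((∀ u, B u (N u) = 0) → s = 2)) ∧ 0 < s * a ∧ Blk B N U s a := by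
  have ha : ∀ v, B v v = 0 := by
    rcases hK with ⟨h, -⟩ | ⟨-, -, h⟩
    · exact absurd rfl h
    · exact h
  obtain ⟨k, hkn, ⟨w, hw, hwk⟩, hk⟩ := exists_top_power hn h0
  obtain ⟨v, hv, hwv⟩ := hWn _ (hW.pow k w hw) hwk
  have hvw : B v ((N ^ k) w) ≠ 0 := fun h => hwv (hB.eq_zero_comm.1 h)
  have hk01 : k = 0 ∨ k = 1 := by omega
  rcases hk01 with rfl | rfl
  · obtain ⟨U, hU, hblk⟩ := blk_two hB hN hW hk hv hw (ha v) (ha w) hvw
    exact ⟨U, hU, 2, 1, ⟨Or.inr (Or.inr ⟨rfl, rfl⟩), fun _ => rfl⟩, by omega, hblk⟩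
  · by_cases h1 : ∃ u ∈ W, B u (N u) ≠ 0
    · obtain ⟨u, hu, huu⟩ := h1
      obtain ⟨U, hU, hblk⟩ := blk_one (k := 1) hB hN hW hk hu (by rw [pow_one]; exact huu)
      exact ⟨U, hU, 1, 2, ⟨Or.inl ⟨rfl, rfl⟩, fun h => absurd (h u) huu⟩, by omega, hblk⟩
    · push Not at h1
      obtain ⟨U, hU, hblk⟩ := blk_two hB hN hW hk hv hw (by rw [pow_one]; exact h1 v hv) (by
        rw [pow_one]; exact h1 w hw) hvw
      exact ⟨U, hU, 2, 2, ⟨Or.inr (Or.inl ⟨rfl, rfl⟩), fun _ => rfl⟩, by omega, hblk⟩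

end step

section bad

variable {F : Type*} [Field F] {d : ℕ}

/-- The operator with matrix `(0 P; 0 0)`, `P` a permutation matrix. -/
def nb (F : Type*) [Field F] {d : ℕ} (π : Equiv.Perm (Fin d)) : Module.End F (Fin d ⊕ Fin d → F) where
  toFun v := Sum.elim (fun i => v (Sum.inr (π i))) 0
  map_add' u v := by ext i; rcases i with i | i <;> simp
  map_smul' a v := by ext i; rcases i with i | i <;> simp

lemma nb_form (π : Equiv.Perm (Fin d)) (u v : Fin d ⊕ Fin d → F) :
    sympForm d F u (nb F π v) = ∑ i, u (Sum.inr i) * v (Sum.inr (π i)) := by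
  rw [ClassicalGeometry.SympBasic.sympForm_eq_sum]
  refine Finset.sum_congr rfl fun i _ => ?_
  simp [nb]

lemma nb_skew {π : Equiv.Perm (Fin d)} (hπ : ∀ i, π (π i) = i) : Skew (sympForm d F) (nb F π) := by
  intro u v
  rw [nb_form, ClassicalGeometry.SympBasic.sympForm_swap, nb_form, ← Equiv.sum_comp π]
  rw [neg_inj]
  refine Finset.sum_congr rfl fun i _ => ?_
  rw [hπ]
  ring

lemma nb_sq (π : Equiv.Perm (Fin d)) : nb F π ^ 2 = 0 := by
  rw [pow_two]
  apply LinearMap.ext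
  intro v
  rw [Module.End.mul_apply]
  ext i
  rcases i with i | i <;> simp [nb]

lemma nb_self [CharP F 2] {π : Equiv.Perm (Fin d)} (hπ : ∀ i, π (π i) = i) (hfix : ∀ i, π i ≠ i)
    (u : Fin d ⊕ Fin d → F) : sympForm d F u (nb F π u) = 0 := by
  rw [nb_form]
  refine Finset.sum_involution (fun i _ => π i) ?_ ?_ ?_ ?_
  · intro i _
    rw [hπ, mul_comm (u (Sum.inr (π i)))]
    exact CharTwo.add_self_eq_zero _
  · intro i _ _; exact hfix i
  · intro i _; exact Finset.mem_univ _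
  · intro i _; exact hπ i

lemma nb_rank (π : Equiv.Perm (Fin d)) : finrank F ↥((⊤ : Submodule F (Fin d ⊕ Fin d → F)).map (nb F π ^ 1)) = d := by
  let j : (Fin d → F) →ₗ[F] (Fin d ⊕ Fin d → F) :=
    { toFun := fun v => Sum.elim v 0
      map_add' := fun u v => by ext i; rcases i with i | i <;> simp
      map_smul' := fun a v => by ext i; rcases i with i | i <;> simp }
  have hj : Function.Injective j := by
    intro u v h
    funext i
    exact congrFun h (Sum.inl i)
  have h1 : (⊤ : Submodule F (Fin d ⊕ Fin d → F)).map (nb F π ^ 1) = LinearMap.range j := by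
    rw [pow_one, Submodule.map_top]
    apply le_antisymm
    · rintro _ ⟨v, rfl⟩
      exact ⟨fun i => v (Sum.inr (π i)), rfl⟩
    · rintro _ ⟨v, rfl⟩
      refine ⟨Sum.elim 0 (fun i => v (π.symm i)), ?_⟩
      ext i
      rcases i with i | i
      · simp [nb, j]
      · simp [nb, j]
  rw [h1, LinearMap.finrank_range_of_inj hj]
  simp

end bad

variable {F : Type*} [Field F] [Fintype F] {d m : ℕ}

theorem snd_char2 [CharP F 2] (hd : 2 ≤ d) (hme : Even m) (hmd : m < d) :
    SStat F d 2 (fun W => finrank F ↥W = m ∧ Nd (sympForm d F) W) ↔ (2 * d % 4 = 2 ∨ m % 4 = 0) := by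
  have hB := frm_symp (F := F) d
  have hK := kind_symp (F := F) d
  have hV := nd_symp (F := F) d
  have hfr : finrank F (Fin d ⊕ Fin d → F) = 2 * d := by simp [two_mul]
  have h2F : (2 : F) = 0 := by
    have := CharP.cast_eq_zero F 2
    exact_mod_cast this
  have : Fact (Nat.Prime 2) := ⟨Nat.prime_two⟩
  have hm2 := Nat.even_iff.1 hme
  constructor
  · intro h
    by_contra hno
    push Not at hno
    obtain ⟨e, he⟩ : ∃ e, d = e * 2 := ⟨d / 2, by omega⟩
    subst he
    let ε : Fin e × Fin 2 ≃ Fin (e * 2) := finProdFinEquiv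
    let π : Equiv.Perm (Fin (e * 2)) := ε.symm.trans ((Equiv.prodCongrRight fun _ => Equiv.swap 0 1).trans ε)
    have hπ : ∀ i, π (π i) = i := by
      intro i
      obtain ⟨⟨a, b⟩, rfl⟩ := ε.surjective i
      simp [π]
    have hfix : ∀ i, π i ≠ i := by
      intro i
      obtain ⟨⟨a, b⟩, rfl⟩ := ε.surjective i
      simp only [π, Equiv.trans_apply, Equiv.symm_apply_apply, ne_eq, EmbeddingLike.apply_eq_iff_eq]
      intro h
      have := congrArg Prod.snd h
      fin_cases b <;> simp at this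
    have hN := nb_skew (F := F) hπ
    obtain ⟨y, hy, hyp, hyW, hy1⟩ := exists_isom_of_skew_two hB hN (nb_sq π)
    obtain ⟨W, ⟨hWm, hWn⟩, hW⟩ := h y hy ⟨1, by rw [hyp, one_smul]⟩ (by
      intro z hz
      have h1 : z ^ 2 = 1 := scalar_sq hB hV (exists_ne_zero' (by omega)) (r := 1) hy (by rw [pow_one, hz])
      have h3 : (z - 1) ^ 2 = 0 := by linear_combination h1 + (1 - z) * h2F
      have h4 : z = 1 := by
        have := pow_eq_zero_iff (two_ne_zero) |>.1 h3
        linear_combination this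
      have h5 := hy1 (by rw [hz, h4, one_smul])
      have h6 := nb_rank (F := F) π
      rw [h5, pow_one, Submodule.map_zero, finrank_bot] at h6
      omega)
    have hWN : Inv (nb F π) W := (hyW W).1 hW
    have hperp : ∀ W, Inv (nb F π) W → Inv (nb F π) (hB.perp W) := fun W hW => hN.inv_perp hB hW
    have hself := nb_self (F := F) hπ hfix
    have hstep : ∀ W, Inv (nb F π) W → Nd (sympForm (e * 2) F) W → W ≠ ⊥ → ∃ U ≤ W, ∃ s a,
        (s = 2 ∧ (a = 1 ∨ a = 2)) ∧ 0 < s * a ∧ Blk (sympForm (e * 2) F) (nb F π) U s a := by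
      intro W h1 h2 h3
      obtain ⟨U, hU, s, a, ⟨hP, hs⟩, hpos, hblk⟩ := step_two hB hK hN (nb_sq π) W h1 h2 h3
      refine ⟨U, hU, s, a, ⟨hs hself, ?_⟩, hpos, hblk⟩
      rcases hP with ⟨-, h⟩ | ⟨-, h⟩ | ⟨-, h⟩
      · exact Or.inr h
      · exact Or.inr h
      · exact Or.inl h
    obtain ⟨ν, hν, hν1⟩ := exists_jt (P := fun s a => s = 2 ∧ (a = 1 ∨ a = 2)) hB hperp hstep W hWN hWn
    have hWp := hB.nd_perp_inf hV hWn le_top
    rw [inf_top_eq] at hWp
    obtain ⟨ν', hν', hν'1⟩ := exists_jt (P := fun s a => s = 2 ∧ (a = 1 ∨ a = 2)) hB hperp hstep (hB.perp W) (hperp _ hWN) hWp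
    have hadd := hν.add hB hν' fun u hu w hw => hB.eq_zero_comm.1 (hw u hu)
    rw [(hB.isCompl_perp hWn).sup_eq_top] at hadd
    -- for all multisets of such pairs: dim ≤ 2 rank with equality iff all a = 2
    have key : ∀ κ : Multiset (ℕ × ℕ), (∀ x ∈ κ, x.1 = 2 ∧ (x.2 = 1 ∨ x.2 = 2)) →
        2 * (κ.map fun x => x.1 * (x.2 - 1)).sum ≤ (κ.map fun x => x.1 * x.2).sum ∧
        4 ∣ 2 * (κ.map fun x => x.1 * (x.2 - 1)).sum := by
      intro κ
      induction κ using Multiset.induction_on with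
      | empty => intro _; simp
      | cons x κ ih =>
        intro hκ
        obtain ⟨i1, i2⟩ := ih fun y hy => hκ y (Multiset.mem_cons_of_mem hy)
        simp only [Multiset.map_cons, Multiset.sum_cons]
        obtain ⟨h1, h2 | h2⟩ := hκ x (Multiset.mem_cons_self _ _)
        · rw [h1, h2]; omega
        · rw [h1, h2]; omega
    have k1 := key ν hν1
    have k2 := key ν' hν'1
    have r0 := hν.finrank_eq hB
    have r0' := hν'.finrank_eq hB
    have r1 := hadd.rank hB 1
    rw [nb_rank, Multiset.map_add, Multiset.sum_add] at r1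
    have r2 := hadd.finrank_eq hB
    rw [finrank_top, hfr, Multiset.map_add, Multiset.sum_add] at r2
    rw [hWm] at r0
    omega
  · rintro h T hT ⟨z, hz⟩ hns
    have h1 : z ^ 2 = 1 := scalar_sq hB hV (exists_ne_zero' (by omega)) hT hz
    have h3 : (z - 1) ^ 2 = 0 := by linear_combination h1 + (1 - z) * h2F
    have h4 : z = 1 := by
      have := pow_eq_zero_iff (two_ne_zero) |>.1 h3
      linear_combination this
    rw [h4, one_smul] at hz
    obtain ⟨N, hN, hN2, hyW⟩ := exists_skew_of_isom_two hB hT hz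
    obtain ⟨μ, hμ, hμ1⟩ := exists_jt (P := fun s a => P2 s a ∧ ((∀ u, sympForm d F u (N u) = 0) → s = 2)) hB
      (fun W hW => hN.inv_perp hB hW) (step_two hB hK hN hN2) ⊤ (fun _ _ => trivial) hV
    have hd' := hμ.finrank_eq hB
    rw [finrank_top, hfr] at hd'
    obtain ⟨ν, hν, hs⟩ := exists_sub_two (fun x hx => (hμ1 x hx).1) hd'.symm hm2 hmd h
    obtain ⟨W, -, hW⟩ := hμ.sub hν
    exact ⟨W, ⟨by rw [hW.finrank_eq hB, hs], hW.nd hB⟩, (hyW W).2 hW.inv⟩

end Cfsg.Agent.H951
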