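import Cfsg.Agent.H951.STI
/-!
# Totally isotropic `m`-spaces of the symplectic space: `r` odd, `r ≠ p`
-/

set_option autoImplicit false
set_option linter.unusedSectionVars false
set_option linter.unusedVariables false

namespace Cfsg.Agent.H951

open Module Polynomial Cfsg

variable {F : Type*} [Field F] [Fintype F] {q d r m : ℕ}
variable {V : Type*} [AddCommGroup V] [Module F V] [FiniteDimensional F V] {B : V → V → F}

/-- Blocks of a prescribed type, `i` even. -/
theorem exists_blk_type [Fact r.Prime] (hr : (r : F) ≠ 0) (hF : Fintype.card F = q)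
    (hB : Frm (RingHom.id F) (-1) B) (hK : Kind (RingHom.id F) (-1) B) {i : ℕ}
    (hi : i = orderOf (q : ZMod r)) (hi0 : 0 < i) (hie : Even i) {f : F[X]} (hf : Irreducible f) (hd : f ∣ cyclotomic r F)
    {U : Submodule F V} (hU : Nd B U) (hUc : finrank F U = i) :
    ∃ y : Module.End F V, Isom B y ∧ y ^ r = 1 ∧ hB.perp U ≤ fx y ∧ cm y = U ∧ ∀ u ∈ U, aeval y f u = 0 := by
  obtain ⟨y, hy, hyr, hyp, hyc⟩ := exists_blk_symp (c := i) hr hF hB hK hi hi0 (by rw [if_pos hie]) hU hUc
  have hi' : i = orderOf (Fintype.card F : ZMod r) := by rw [hF]; exact hi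
  have hirr : Irr y U := by
    have hU0 : U ≠ ⊥ := by
      rintro rfl
      rw [finrank_bot] at hUc
      omega
    refine ⟨hU0, by rw [← hyc]; exact inv_cm, ?_⟩
    intro W hWU hW
    by_cases h0 : W = ⊥
    · exact Or.inl h0
    right
    have h1 := ord_dvd_finrank hyr hW (inf_fx_of_le_cm hr hyr (hWU.trans hyc.ge))
    rw [← hi'] at h1
    have h2 : 0 < finrank F W := by
      rw [Nat.pos_iff_ne_zero]
      exact fun h => h0 (Submodule.finrank_eq_zero.1 h)
    exact Submodule.eq_of_le_of_finrank_le hWU (by rw [hUc]; exact Nat.le_of_dvd h2 h1)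
  obtain ⟨f₀, hf₀, hd₀, hk₀⟩ := hirr.exists_factor (cyclotomic r F) (cyclotomic_ne_zero r F)
    fun v hv => cyclotomic_apply_of_mem_cm hyr (by rw [hyc]; exact hv)
  obtain ⟨k, hk, hkd⟩ := exists_pow_dvd hr hf₀ hd₀ hf hd
  refine ⟨y ^ k, hy.pow k, ?_, hyp.trans (fx_le_fx_pow k), ?_, ?_⟩
  · rw [← pow_mul, mul_comm, pow_mul, hyr, one_pow]
  · rw [cm_pow_eq hyr hk, hyc]
  · intro u hu
    rw [← aeval_comp_pow]
    obtain ⟨g, hg⟩ := hkd
    rw [hg, mul_comm, map_mul, Module.End.mul_apply, hk₀ u hu, map_zero]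

/-- Elements whose totally isotropic invariant subspaces in `[V, x]` are small. -/
theorem exists_bad [Fact r.Prime] (hr : (r : F) ≠ 0) (hF : Fintype.card F = q)
    (hB : Frm (RingHom.id F) (-1) B) (hK : Kind (RingHom.id F) (-1) B) (hV : Nd B (⊤ : Submodule F V)) {i : ℕ}
    (hi : i = orderOf (q : ZMod r)) (hi0 : 0 < i) (hie : Even i) {f₁ : F[X]} (hf₁ : Irreducible f₁)
    (hd₁ : f₁ ∣ cyclotomic r F) (S' : Finset F[X]) (hS' : ∀ g ∈ S', Irreducible g ∧ g ∣ cyclotomic r F ∧ g.Monic)
    (hm₁ : f₁.Monic) (hnot : f₁ ∉ S') (a : ℕ) (hdim : i * (a + S'.card) ≤ finrank F V) :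
    ∃ x : Module.End F V, Isom B x ∧ x ^ r = 1 ∧ finrank F ↥(cm x) = i * (a + S'.card) ∧
      (∀ u ∈ cm x, aeval x (f₁ * ∏ g ∈ S', g) u = 0) ∧
      ∀ W ≤ cm x, Inv x W → TI B W → 2 * finrank F W ≤ i * a := by
  classical
  have hi' : i = orderOf (Fintype.card F : ZMod r) := by rw [hF]; exact hi
  induction S' using Finset.induction_on with
  | empty =>
    rw [Finset.card_empty, add_zero] at hdim
    obtain ⟨x, hx, hxr, hxd, hxk⟩ := exists_elt_kill hB hK hV hr (c := i) (fun _ => hie) (f := f₁)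
      (fun U hU hUc => exists_blk_type hr hF hB hK hi hi0 hie hf₁ hd₁ hU hUc) a hdim
    refine ⟨x, hx, hxr, by simpa using hxd, by simpa using hxk, ?_⟩
    intro W hW _ hWt
    have := hB.two_mul_finrank_le (hx.nd_cm hB hr hxr hV) hW hWt
    rwa [hxd] at this
  | insert g S' hg ih =>
    rw [Finset.card_insert_of_notMem hg] at hdim ⊢
    have e1 : i * (a + (S'.card + 1)) = i * (a + S'.card) + i := by ring
    rw [e1] at hdim ⊢
    obtain ⟨x, hx, hxr, hxd, hxk, hxD⟩ := ih (fun g hg => hS' g (Finset.mem_insert_of_mem hg))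
      (fun h => hnot (Finset.mem_insert_of_mem h)) (by omega)
    obtain ⟨hgi, hgd, hgm⟩ := hS' g (Finset.mem_insert_self _ _)
    have h2 := finrank_fx_cm hr hxr
    obtain ⟨U, hUx, hU, hUc⟩ := exists_nd_sub hB hK (hx.nd_fx hB hr hxr hV) (k := i) (by omega) (fun _ => hie)
    obtain ⟨y, hy, hyr, hyp, hyc, hyk⟩ := exists_blk_type hr hF hB hK hi hi0 hie hgi hgd hU hUc
    have h3 := glue_comm hB hU hx hUx hyc.le hyp
    have h4 := glue_cm hB hU hx hUx hyc.le hyp
    have hne : ∀ h : F[X], Irreducible h → h.Monic → h ≠ g → IsCoprime h g := by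
      intro h hh hhm hhg
      rw [hh.coprime_iff_not_dvd]
      intro hdvd
      apply hhg
      exact eq_of_monic_of_associated hhm hgm (hh.associated_of_dvd hgi hdvd)
    have hcop : IsCoprime (f₁ * ∏ g ∈ S', g) g := by
      apply IsCoprime.mul_left
      · exact hne f₁ hf₁ hm₁ (fun h => hnot (by rw [h]; exact Finset.mem_insert_self _ _))
      · apply IsCoprime.prod_left
        intro h hh
        obtain ⟨k1, k2, k3⟩ := hS' h (Finset.mem_insert_of_mem hh)
        exact hne h k1 k3 (fun e => hg (by rw [← e]; exact hh))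
    obtain ⟨g1, g2⟩ := glue_types hB hV hU hx hUx hyp hyc hcop hxk hyk (by
      intro W hW hWi hWt
      by_contra h0
      have h5 := ord_dvd_finrank hyr hWi (inf_fx_of_le_cm hr hyr (hW.trans hyc.ge))
      rw [← hi'] at h5
      have h6 : 0 < finrank F W := by
        rw [Nat.pos_iff_ne_zero]
        exact fun h => h0 (Submodule.finrank_eq_zero.1 h)
      have h7 := Nat.le_of_dvd h6 h5
      have h8 := hB.two_mul_finrank_le hU hW hWt
      omega) hxD
    refine ⟨x * y, isom_mul hx hy, ?_, ?_, ?_, g2⟩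
    · rw [(show Commute x y from h3).mul_pow, hxr, hyr, one_mul]
    · rw [h4.1, finrank_sup_of_disj h4.2, hxd, hyc, hUc]
    · intro u hu
      rw [Finset.prod_insert hg, show f₁ * (g * ∏ h ∈ S', h) = (f₁ * ∏ h ∈ S', h) * g by ring]
      exact g1 u hu

open UniqueFactorizationMonoid in
/-- The number of irreducible factors of the cyclotomic polynomial. -/
theorem exists_factors [Fact r.Prime] (hr : (r : F) ≠ 0) (hF : Fintype.card F = q) {i : ℕ}
    (hi : i = orderOf (q : ZMod r)) :
    ∃ S : Finset F[X], S.card = (r - 1) / i ∧ ∀ g ∈ S, Irreducible g ∧ g ∣ cyclotomic r F ∧ g.Monic := by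
  classical
  obtain ⟨p, hp⟩ := CharP.exists F
  obtain ⟨n, hpp, hn⟩ := FiniteField.card F p
  have hfact : Fact p.Prime := ⟨hpp⟩
  have hcop : p.Coprime r := by
    rw [Nat.coprime_primes hpp Fact.out]
    rintro rfl
    exact hr (CharP.cast_eq_zero F p)
  refine ⟨(normalizedFactors (cyclotomic r F)).toFinset, ?_, ?_⟩
  · rw [Polynomial.normalizedFactors_cyclotomic_card hn hcop, Nat.totient_prime Fact.out, ← orderOf_units,
      ZMod.coe_unitOfCoprime, ← hn, hF, ← hi]
  · intro g hg
    rw [Multiset.mem_toFinset] at hg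
    refine ⟨irreducible_of_normalized_factor g hg, dvd_of_mem_normalizedFactors hg, ?_⟩
    have h1 := normalize_normalized_factor g hg
    rw [← h1]
    exact Polynomial.monic_normalize (irreducible_of_normalized_factor g hg).ne_zero

/-- The decomposition of a totally isotropic invariant subspace. -/
lemma ti_split [Fact r.Prime] (hr : (r : F) ≠ 0) (hF : Fintype.card F = q)
    (hB : Frm (RingHom.id F) (-1) B) (hV : Nd B (⊤ : Submodule F V)) {i : ℕ}
    (hi : i = orderOf (q : ZMod r)) {x : Module.End F V} (hx : Isom B x) (hxr : x ^ r = 1) {W : Submodule F V}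
    (hW : Inv x W) (hWt : TI B W) : ∃ j b, finrank F W = i * j + b ∧ finrank F ↥(W ⊓ cm x) = i * j ∧
      2 * b ≤ finrank F ↥(fx x) := by
  have hi' : i = orderOf (Fintype.card F : ZMod r) := by rw [hF]; exact hi
  have h1 := ord_dvd_finrank hxr (hW.inf inv_cm) (inf_fx_of_le_cm hr hxr inf_le_right)
  rw [← hi'] at h1
  obtain ⟨j, hj⟩ := h1
  have h2 := finrank_inf_add hr hxr hW
  refine ⟨j, finrank F ↥(W ⊓ fx x), by omega, hj, ?_⟩
  exact hB.two_mul_finrank_le (hx.nd_fx hB hr hxr hV) inf_le_right (hWt.mono inf_le_left)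

/-- From a large totally isotropic invariant subspace of `[V, x]`. -/
lemma ti_assemble [Fact r.Prime] (hr : (r : F) ≠ 0) (hF : Fintype.card F = q)
    (hB : Frm (RingHom.id F) (-1) B) (hK : Kind (RingHom.id F) (-1) B) (hV : Nd B (⊤ : Submodule F V)) {i : ℕ}
    (hi : i = orderOf (q : ZMod r)) {x : Module.End F V} (hx : Isom B x) (hxr : x ^ r = 1) {W : Submodule F V}
    (hWc : W ≤ cm x) (hW : Inv x W) (hWt : TI B W) {j b : ℕ} (hj : i * j ≤ finrank F W) (hb : 2 * b ≤ finrank F ↥(fx x)) :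
    ∃ W' : Submodule F V, Inv x W' ∧ TI B W' ∧ finrank F W' = i * j + b := by
  have hi' : i = orderOf (Fintype.card F : ZMod r) := by rw [hF]; exact hi
  obtain ⟨W₁, h1, h2, h3⟩ := exists_inv_finrank hr hxr hW hWc (j := j) (by rw [← hi']; exact hj)
  obtain ⟨W₂, k1, k2, k3⟩ := exists_ti_sub hB hK (hx.nd_fx hB hr hxr hV) hb
  obtain ⟨g1, g2, g3⟩ := sup_ti_invariant hB hx (h1.trans hWc) k1 h2 (hWt.mono h1) k2 hr hxr
  exact ⟨_, g1, g2, by rw [g3, h3, k3, ← hi']⟩

theorem sti_odd {p : ℕ} [Fact p.Prime] [CharP F p] (hF : Fintype.card F = q) (hd : 2 ≤ d) (hm : 1 ≤ m)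
    (hmd : m ≤ d) [Fact r.Prime] (hr2 : r ≠ 2) (hr : (r : F) ≠ 0)
    (hΩ : r ∣ Nat.card {W : Submodule F (Fin d ⊕ Fin d → F) // finrank F ↥W = m ∧ TI (sympForm d F) W}) {i c : ℕ}
    (hi : i = orderOf (q : ZMod r)) (hc : c = if Even i then i else 2 * i) :
    SStat F d r (fun W => finrank F ↥W = m ∧ TI (sympForm d F) W) ↔
      (i ≤ m ∧ 2 * (m % i) ≤ (2 * d) % c ∧ (Odd i ∨ (r - 1) / i + 2 * (m / i) ≤ (2 * d) / i)) := by
  have hrP : r.Prime := Fact.out
  have hq := two_le_card hF
  have hi0 := ord_pos' hF hr hi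
  have hc0 : 0 < c := by rw [hc]; split_ifs <;> omega
  have hB := frm_symp (F := F) d
  have hK := kind_symp (F := F) d
  have hV := nd_symp (F := F) d
  have hfr : finrank F (Fin d ⊕ Fin d → F) = 2 * d := by simp [two_mul]
  have hodd := hrP.odd_of_ne_two hr2
  have hi' : i = orderOf (Fintype.card F : ZMod r) := by rw [hF]; exact hi
  have ha : ∀ v, sympForm d F v v = 0 := fun v => ClassicalGeometry.SympBasic.sympForm_self v
  obtain ⟨hcn, hmod⟩ : c ≤ 2 * d ∧ 2 * d % c < 2 * m := by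
    obtain ⟨j, h2, h3, h4⟩ := exists_dvd_sf_ti hF hmd hrP (not_dvd_q hF hr) hΩ
    exact mod_lt_of_sf (by omega) hi hi0 hc h2 h3 h4
  have hci : c ≤ 2 * i := by rw [hc]; split_ifs <;> omega
  have hmodc : 2 * d % c < c := Nat.mod_lt _ hc0
  have hdivc := Nat.div_add_mod (2 * d) c
  have hdivi := Nat.div_add_mod (2 * d) i
  have hmodi : 2 * d % i < i := Nat.mod_lt _ hi0
  have hmdiv := Nat.div_add_mod m i
  have hmmod : m % i < i := Nat.mod_lt _ hi0
  have hns : ∀ y : Module.End F (Fin d ⊕ Fin d → F), Isom (sympForm d F) y → y ^ r = 1 → 0 < finrank F ↥(cm y) →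
      ∀ z : F, y ≠ z • 1 := by
    intro y hy hyr hpos z hz
    have h1 := eq_one_of_scalar hB hV (exists_ne_zero' (by omega)) hy hodd hyr hz
    have h4 : cm y = ⊥ := by
      rw [eq_bot_iff]
      intro v hv
      obtain ⟨w, rfl⟩ := mem_cm.1 hv
      rw [h1]
      simp
    rw [h4, finrank_bot] at hpos
    exact lt_irrefl 0 hpos
  -- i j + b with b < i
  have hdecomp : ∀ j b, m = i * j + b → b < i → j = m / i ∧ b = m % i := by
    intro j b h1 h2
    constructor
    · rw [h1, Nat.mul_add_div hi0, Nat.div_eq_of_lt h2, add_zero]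
    · rw [h1, Nat.mul_add_mod, Nat.mod_eq_of_lt h2]
  constructor
  · intro h
    have hcpos : 1 ≤ 2 * d / c := (Nat.one_le_div_iff hc0).2 hcn
    have hcc : c * 1 ≤ c * (2 * d / c) := Nat.mul_le_mul_left _ hcpos
    obtain ⟨y, hy, hyr, hyd⟩ := exists_elt_symp hr hF hB hK hV hi hi0 hc (M := 2 * d / c)
      (by rw [hfr]; exact Nat.mul_div_le _ c)
    obtain ⟨W, ⟨hWm, hW⟩, hWi⟩ := h y hy ⟨1, by rw [hyr, one_smul]⟩ (hns y hy hyr (by omega))
    obtain ⟨j, b, h1, h2, h3⟩ := ti_split hr hF hB hV hi hy hyr hWi hW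
    have h4 := finrank_fx_cm hr hyr
    rw [hyd, hfr] at h4
    rw [hWm] at h1
    obtain ⟨e1, e2⟩ := hdecomp j b h1 (by omega)
    have hj0 : j ≠ 0 := by rintro rfl; omega
    have hij : i * 1 ≤ i * j := Nat.mul_le_mul_left _ (Nat.pos_of_ne_zero hj0)
    refine ⟨by omega, by omega, ?_⟩
    rcases Nat.even_or_odd i with he | ho
    · right
      have hci' : c = i := by rw [hc, if_pos he]
      subst hci'
      obtain ⟨S, hScard, hS⟩ := exists_factors hr hF hi
      set t := (r - 1) / c with ht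
      set n' := 2 * d / c with hn'
      by_contra hlt
      push Not at hlt
      -- t ≥ 1
      have ht1 : 1 ≤ t := by
        rw [ht, Nat.one_le_div_iff hi0, hi]
        refine Nat.le_of_dvd (Nat.sub_pos_of_lt hrP.one_lt) ?_
        rw [orderOf_dvd_iff_pow_eq_one]
        exact ZMod.pow_card_sub_one_eq_one (by
          intro h0
          exact not_dvd_q hF hr ((ZMod.natCast_eq_zero_iff _ _).1 h0))
      have hSne : S.Nonempty := by
        rw [← Finset.card_pos]; omega
      obtain ⟨f₁, hf₁⟩ := hSne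
      classical
      have hcard' : (S.erase f₁).card = t - 1 := by rw [Finset.card_erase_of_mem hf₁, hScard]
      obtain ⟨a, u, hu, hau⟩ : ∃ a u, u ≤ t - 1 ∧ ((t < n' ∧ a = n' - t ∧ u = t - 1) ∨ (n' ≤ t ∧ a = 1 ∧ u = n' - 1)) := by
        rcases lt_or_ge t n' with h5 | h5
        · exact ⟨n' - t, t - 1, le_rfl, Or.inl ⟨h5, rfl, rfl⟩⟩
        · exact ⟨1, n' - 1, by omega, Or.inr ⟨h5, rfl, rfl⟩⟩
      obtain ⟨S', hS'S, hS'card⟩ := Finset.exists_subset_card_eq (hu.trans hcard'.ge)
      have hau' : a + u ≤ n' := by omega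
      have hle : c * (a + u) ≤ c * n' := Nat.mul_le_mul_left _ hau'
      obtain ⟨x, hx, hxr, hxd, -, hxD⟩ := exists_bad hr hF hB hK hV hi hi0 he (hS f₁ hf₁).1 (hS f₁ hf₁).2.1 S'
        (fun g hg => hS g (Finset.mem_of_mem_erase (hS'S hg))) (hS f₁ hf₁).2.2
        (fun h => (Finset.notMem_erase f₁ S) (hS'S h)) a (by rw [hS'card, hfr]; omega)
      rw [hS'card] at hxd
      have hpos' : 0 < c * (a + u) := Nat.mul_pos hi0 (by omega)
      obtain ⟨W, ⟨hWm, hW⟩, hWi⟩ := h x hx ⟨1, by rw [hxr, one_smul]⟩ (hns x hx hxr (by omega))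
      obtain ⟨j', b', k1, k2, k3⟩ := ti_split hr hF hB hV hi hx hxr hWi hW
      have k4 := finrank_fx_cm hr hxr
      rw [hxd, hfr] at k4
      rw [hWm] at k1
      have k5 := hxD (W ⊓ cm x) inf_le_right (hWi.inf inv_cm) (hW.mono inf_le_left)
      rw [k2] at k5
      have k6 : 2 * j' ≤ a := by
        have : c * (2 * j') ≤ c * a := by
          calc c * (2 * j') = 2 * (c * j') := by ring
            _ ≤ c * a := k5
        exact Nat.le_of_mul_le_mul_left this hi0
      rcases hau with ⟨l1, l2, l3⟩ | ⟨l1, l2, l3⟩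
      · have l4 : c * (a + u) + c = c * n' := by
          have : a + u + 1 = n' := by omega
          rw [← this]; ring
        obtain ⟨e3, e4⟩ := hdecomp j' b' k1 (by omega)
        omega
      · have l4 : a + u = n' := by omega
        rw [l4] at k4
        have l5 : j' = 0 := by omega
        rw [l5] at k1
        omega
    · exact Or.inl ho
  · rintro ⟨him, hk, hcond⟩ T hT ⟨z, hz⟩ hns
    obtain ⟨hz0, hy, hyr⟩ := normalize_odd hB hV (exists_ne_zero' (by omega)) hT hodd hz
    set y := z • T with hydef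
    have hss := semisimple_of_pow hr hyr
    have hinj : Function.Injective y := by
      obtain ⟨s, hs⟩ : ∃ s, r = s + 1 := ⟨r - 1, by have := hrP.pos; omega⟩
      intro u v huv
      have h : ∀ w, (y ^ s) (y w) = w := by
        intro w
        rw [← Module.End.mul_apply, ← pow_succ, ← hs, hyr]
        rfl
      rw [← h u, ← h v, huv]
    obtain ⟨M, hM⟩ := dvd_finrank_symp hr hF hB hK hi hc hyr (cm y) inv_cm (hy.nd_cm hB hr hyr hV) le_rfl
    have h4 := finrank_fx_cm hr hyr
    rw [hM, hfr] at h4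
    have hMn : M ≤ 2 * d / c := (Nat.le_div_iff_mul_le hc0).2 (by rw [mul_comm]; omega)
    have hMc : c * M ≤ c * (2 * d / c) := Nat.mul_le_mul_left _ hMn
    rcases Nat.even_or_odd i with he | ho
    · have hci' : c = i := by rw [hc, if_pos he]
      subst hci'
      have hcond' : (r - 1) / c + 2 * (m / c) ≤ 2 * d / c := by
        rcases hcond with h | h
        · exact absurd he (Nat.not_even_iff_odd.2 h)
        · exact h
      obtain ⟨W, hWc, hWi, hWt, hWd⟩ := exists_ti_of_step hB hss (fun W hW => hy.inv_perp hB hinj hW) (D := r - 1)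
        (T := cm y) (fun U _ hU _ hUd => step_cw hB ha hy hodd hyr U hU hUd) le_rfl inv_cm (hy.nd_cm hB hr hyr hV)
      obtain ⟨s, hs⟩ := ord_dvd_finrank hyr hWi (inf_fx_of_le_cm hr hyr hWc)
      rw [← hi'] at hs
      have hir : c ∣ r - 1 := by
        rw [hi, orderOf_dvd_iff_pow_eq_one]
        exact ZMod.pow_card_sub_one_eq_one (by
          intro h0
          exact not_dvd_q hF hr ((ZMod.natCast_eq_zero_iff _ _).1 h0))
      obtain ⟨t, ht⟩ := hir
      have htt : (r - 1) / c = t := by rw [ht, Nat.mul_div_cancel_left _ hi0]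
      rw [htt] at hcond'
      rw [hM, hs, ht] at hWd
      have hMs : M ≤ 2 * s + t := by
        have : c * M ≤ c * (2 * s + t) := by
          calc c * M ≤ 2 * (c * s) + c * t := hWd
            _ = c * (2 * s + t) := by ring
        exact Nat.le_of_mul_le_mul_left this hi0
      have key : ∃ j b, m = c * j + b ∧ j ≤ s ∧ 2 * b ≤ finrank F ↥(fx y) := by
        rcases le_total (m / c) s with h5 | h5
        · exact ⟨m / c, m % c, hmdiv.symm, h5, by omega⟩
        · have h6 : c * s ≤ c * (m / c) := Nat.mul_le_mul_left _ h5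
          refine ⟨s, m - c * s, by omega, le_rfl, ?_⟩
          have h7 : c * (t + 2 * (m / c)) ≤ c * (2 * d / c) := Nat.mul_le_mul_left _ hcond'
          have h8 : c * (t + 2 * (m / c)) = c * t + 2 * (c * (m / c)) := by ring
          have h9 : c * M ≤ c * (2 * s + t) := Nat.mul_le_mul_left _ hMs
          have h10 : c * (2 * s + t) = 2 * (c * s) + c * t := by ring
          omega
      obtain ⟨j, b, k1, k2, k3⟩ := key
      obtain ⟨W', g1, g2, g3⟩ := ti_assemble hr hF hB hK hV hi hy hyr hWc hWi hWt (j := j) (b := b)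
        (by rw [hs]; exact Nat.mul_le_mul_left _ k2) k3
      exact ⟨W', ⟨by rw [g3, ← k1], g2⟩, (inv_smul_iff' hz0).1 g1⟩
    · have hci' : c = 2 * i := by rw [hc, if_neg (Nat.not_even_iff_odd.2 ho)]
      obtain ⟨W, hWc, hWi, hWt, hWd⟩ := exists_ti_of_step hB hss (fun W hW => hy.inv_perp hB hinj hW) (D := 0)
        (T := cm y) (fun U hUc hU hUn hUd => by
          have hU0 : U ≠ ⊥ := by rintro rfl; rw [finrank_bot] at hUd; omega
          obtain ⟨C, hCU, hC⟩ := exists_irr hU hU0
          refine ⟨C, hCU, hC.2.1, hC.1, ?_⟩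
          rcases hC.nd_or_ti hB hy hinj with h5 | h5
          · exfalso
            have h6 := even_of_kind hB hK h5 rfl
            rw [hC.finrank_eq hr hyr (hCU.trans hUc), ← hi'] at h6
            exact absurd ho (Nat.not_odd_iff_even.2 h6)
          · exact h5) le_rfl inv_cm (hy.nd_cm hB hr hyr hV)
      rw [hM, hci'] at hWd
      have hWd' : i * M ≤ finrank F W := by
        have : 2 * i * M = 2 * (i * M) := by ring
        omega
      rw [hci'] at hk h4
      have h4' : finrank F ↥(fx y) + 2 * (i * M) = 2 * d := by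
        have : 2 * i * M = 2 * (i * M) := by ring
        omega
      have key : ∃ j b, m = i * j + b ∧ j ≤ M ∧ 2 * b ≤ finrank F ↥(fx y) := by
        rcases le_total (m / i) M with h5 | h5
        · refine ⟨m / i, m % i, hmdiv.symm, h5, ?_⟩
          rw [hci'] at hMc hdivc
          have : 2 * i * M = 2 * (i * M) := by ring
          omega
        · have h6 : i * M ≤ i * (m / i) := Nat.mul_le_mul_left _ h5
          exact ⟨M, m - i * M, by omega, le_rfl, by omega⟩
      obtain ⟨j, b, k1, k2, k3⟩ := key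
      obtain ⟨W', g1, g2, g3⟩ := ti_assemble hr hF hB hK hV hi hy hyr hWc hWi hWt (j := j) (b := b)
        ((Nat.mul_le_mul_left _ k2).trans hWd') k3
      exact ⟨W', ⟨by rw [g3, ← k1], g2⟩, (inv_smul_iff' hz0).1 g1⟩

end Cfsg.Agent.H951
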