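import Cfsg.Agent.H951.Cayley
import Cfsg.Agent.H951.JReal
import Cfsg.Agent.H951.SNd
import Cfsg.Agent.H951.MSum
/-!
# Unipotent elements of `PSp_{2d}(q)`, `q` odd, on nondegenerate `m`-spaces
-/

set_option autoImplicit false
set_option linter.unusedSectionVars false
set_option linter.unusedVariables false

namespace Cfsg.Agent.H951

open Module Polynomial Cfsg

section step

variable {F V : Type*} [Field F] [AddCommGroup V] [Module F V] [FiniteDimensional F V]
variable {B : V → V → F} {N : Module.End F V}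

/-- Blocks with two generators. -/
lemma blk_two (hB : Frm (RingHom.id F) (-1) B) (hN : Skew B N) {k : ℕ} {W : Submodule F V} (hW : Inv N W)
    (hk : ∀ w ∈ W, (N ^ (k + 1)) w = 0) {u v : V} (hu : u ∈ W) (hv : v ∈ W) (huu : B u ((N ^ k) u) = 0)
    (hvv : B v ((N ^ k) v) = 0) (huv : B u ((N ^ k) v) ≠ 0) : ∃ U ≤ W, Blk B N U 2 (k + 1) := by
  have hvu : B v ((N ^ k) u) ≠ 0 := by
    intro h
    apply huv
    have h1 : B ((N ^ k) v) u = (-1) ^ k * B v ((N ^ k) u) := hN.pow hB k v u
    rw [h, mul_zero] at h1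
    exact hB.eq_zero_comm.1 h1
  refine ⟨_, ?_, blk_of_gens hB hN (s := 2) (k := k) ![u, v] ?_ ?_⟩
  · rw [Submodule.span_le]
    rintro _ ⟨⟨i, b⟩, rfl⟩
    fin_cases b
    · exact hW.pow _ u hu
    · exact hW.pow _ v hv
  · intro b
    fin_cases b
    · exact hk u hu
    · exact hk v hv
  · intro c hc
    have h0 := hc 0
    have h1 := hc 1
    rw [Fin.sum_univ_two] at h0 h1
    simp only [Matrix.cons_val_zero, Matrix.cons_val_one] at h0 h1
    rw [huu, mul_zero, zero_add] at h0
    rw [hvv, mul_zero, add_zero] at h1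
    ext b
    fin_cases b
    · exact (mul_eq_zero.1 h1).resolve_right huv
    · exact (mul_eq_zero.1 h0).resolve_right hvu

/-- Blocks with one generator. -/
lemma blk_one {ε : F} {σ : F →+* F} (hB : Frm σ ε B) (hN : Skew B N) {k : ℕ} {W : Submodule F V} (hW : Inv N W)
    (hk : ∀ w ∈ W, (N ^ (k + 1)) w = 0) {u : V} (hu : u ∈ W) (huu : B u ((N ^ k) u) ≠ 0) :
    ∃ U ≤ W, Blk B N U 1 (k + 1) := by
  refine ⟨_, ?_, blk_of_gens hB hN (s := 1) (k := k) (fun _ => u) (fun _ => hk u hu) ?_⟩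
  · rw [Submodule.span_le]
    rintro _ ⟨x, rfl⟩
    exact hW.pow _ u hu
  · intro c hc
    have h3 := hc 0
    rw [Fin.sum_univ_one] at h3
    ext b
    rw [Subsingleton.elim b 0]
    exact (mul_eq_zero.1 h3).resolve_right huu

/-- Symplectic case, odd characteristic. -/
theorem step_symp (h2 : (2 : F) ≠ 0) (hB : Frm (RingHom.id F) (-1) B) (hN : Skew B N) {n : ℕ} (hn : N ^ n = 0)
    (W : Submodule F V) (hW : Inv N W) (hWn : Nd B W) (h0 : W ≠ ⊥) :
    ∃ U ≤ W, ∃ s a, PSymp n s a ∧ 0 < s * a ∧ Blk B N U s a := by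
  obtain ⟨k, hkn, ⟨w, hw, hwk⟩, hk⟩ := exists_top_power hn h0
  obtain ⟨v, hv, hwv⟩ := hWn _ (hW.pow k w hw) hwk
  have hvw : B v ((N ^ k) w) ≠ 0 := fun h => hwv (hB.eq_zero_comm.1 h)
  have hsym : ∀ a b, B b ((N ^ k) a) = -(-1) ^ k * B a ((N ^ k) b) := by
    intro a b
    have h1 : B ((N ^ k) b) a = (-1) ^ k * B b ((N ^ k) a) := hN.pow hB k b a
    have h3 := hB.herm ((N ^ k) b) a
    rw [RingHom.id_apply, h1] at h3
    have h4 : ((-1 : F) ^ k) * ((-1) ^ k) = 1 := by rw [← mul_pow]; norm_num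
    rw [h3]
    linear_combination (-B b ((N ^ k) a)) * h4
  rcases Nat.even_or_odd k with he | ho
  · have halt : ∀ a, B a ((N ^ k) a) = 0 := by
      intro a
      have h1 := hsym a a
      rw [he.neg_one_pow] at h1
      have h3 : 2 * B a ((N ^ k) a) = 0 := by linear_combination h1
      exact (mul_eq_zero.1 h3).resolve_left h2
    obtain ⟨U, hU, hblk⟩ := blk_two hB hN hW hk hv hw (halt v) (halt w) hvw
    exact ⟨U, hU, 2, k + 1, Or.inr ⟨rfl, he.add_one, hkn⟩, by omega, hblk⟩
  · have h1 : ∃ u ∈ W, B u ((N ^ k) u) ≠ 0 := by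
      by_contra hno
      push Not at hno
      have h3 := hno (v + w) (W.add_mem hv hw)
      rw [map_add, hB.add_left, hB.add_right, hB.add_right, hno v hv, hno w hw, zero_add, add_zero] at h3
      have h4 := hsym v w
      rw [ho.neg_one_pow] at h4
      rw [h4] at h3
      have h5 : 2 * B v ((N ^ k) w) = 0 := by linear_combination h3
      exact hvw ((mul_eq_zero.1 h5).resolve_left h2)
    obtain ⟨u, hu, huu⟩ := h1
    obtain ⟨U, hU, hblk⟩ := blk_one hB hN hW hk hu huu
    exact ⟨U, hU, 1, k + 1, Or.inl ⟨rfl, ho.add_one, by omega, hkn⟩, by omega, hblk⟩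

end step

variable {F : Type*} [Field F] [Fintype F] {d m p : ℕ}

/-- The case `r = p > 2`. -/
theorem snd_p [Fact p.Prime] [CharP F p] (hp2 : p ≠ 2) (hd : 2 ≤ d) (hme : Even m) (hmd : m < d) :
    SStat F d p (fun W => finrank F ↥W = m ∧ Nd (sympForm d F) W) ↔
      (∀ μ : Multiset ℕ, (∀ a ∈ μ, 0 < a ∧ a ≤ p) → (∀ a : ℕ, Odd a → Even (μ.count a)) → μ.sum = 2 * d →
        ∃ ν : Multiset ℕ, ν ≤ μ ∧ ν.sum = m ∧ ∀ a : ℕ, Odd a → Even (ν.count a)) := by
  have hpP : p.Prime := Fact.out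
  have h2 : (2 : F) ≠ 0 := by
    intro h
    have h3 : ((2 : ℕ) : F) = 0 := by exact_mod_cast h
    rw [CharP.cast_eq_zero_iff F p] at h3
    exact hp2 ((Nat.prime_dvd_prime_iff_eq hpP Nat.prime_two).1 h3)
  have hodd := hpP.odd_of_ne_two hp2
  have hB := frm_symp (F := F) d
  have hK := kind_symp (F := F) d
  have hV := nd_symp (F := F) d
  have hfr : finrank F (Fin d ⊕ Fin d → F) = 2 * d := by simp [two_mul]
  constructor
  · intro h μ hμ hpar hsum
    obtain ⟨μ', hμ', hμμ'⟩ := exists_pairs μ hμ hpar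
    have hreal : ∀ s a, PSymp p s a → ∀ U : Submodule F (Fin d ⊕ Fin d → F), Nd (sympForm d F) U →
        finrank F U = s * a → ∃ N : Module.End F (Fin d ⊕ Fin d → F), Skew (sympForm d F) N ∧
      (∀ v ∈ hB.perp U, N v = 0) ∧ (∀ v, N v ∈ U) ∧ N ^ p = 0 ∧ Blk (sympForm d F) N U s a := by
      intro s a hsa U hU hUd
      have hpos := hsa.pos
      obtain ⟨k, rfl⟩ : ∃ k, a = k + 1 := ⟨a - 1, by omega⟩
      rcases hsa with ⟨rfl, he, -, -⟩ | ⟨rfl, ho, -⟩
      · have hko : Odd k := by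
          obtain ⟨t, ht⟩ := he
          exact ⟨t - 1, by omega⟩
        obtain ⟨N, h1, h3, h4, h5, h6⟩ := exists_block_real hB hK (fun _ => h2) (s := 1) (k := k)
          (fun _ _ => 1) (fun _ _ => by rw [hko.neg_one_pow]; simp) (by
            intro x hx
            have := hx 0
            rw [Fin.sum_univ_one, mul_one] at this
            ext b
            rw [Subsingleton.elim b 0]
            exact this) hU hUd
        refine ⟨N, h1, h3, h4, ?_, h6⟩
        obtain ⟨t, ht⟩ : ∃ t, p = t + (k + 1) := ⟨p - (k + 1), by omega⟩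
        rw [ht, pow_add, h5, mul_zero]
      · have hke : Even k := by
          obtain ⟨t, ht⟩ := ho
          exact ⟨t, by omega⟩
        obtain ⟨N, h1, h3, h4, h5, h6⟩ := exists_block_real hB hK (fun _ => h2) (s := 2) (k := k)
          (fun b b' => if b = b' then 0 else if b = 0 then 1 else -1) (fun b b' => by
            rw [hke.neg_one_pow]
            fin_cases b <;> fin_cases b' <;> simp) (by
            intro x hx
            have h0 := hx 0
            have h1 := hx 1
            rw [Fin.sum_univ_two] at h0 h1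
            simp at h0 h1
            ext b
            fin_cases b
            · simpa using h1
            · simpa using h0) hU hUd
        refine ⟨N, h1, h3, h4, ?_, h6⟩
        obtain ⟨t, ht⟩ : ∃ t, p = t + (k + 1) := ⟨p - (k + 1), by omega⟩
        rw [ht, pow_add, h5, mul_zero]
    obtain ⟨N, h1, -, -, h4, h5⟩ := exists_real hB hK hpP.ne_zero hreal (fun _ s a hsa => by
      rcases hsa with ⟨rfl, he, -, -⟩ | ⟨rfl, ho, -⟩
      · rw [one_mul]; exact he
      · exact even_two_mul a) μ' hμ' ⊤ hV (by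
        rw [finrank_top, hfr, ← hsum, ← hμμ', parts_sum'])
    by_cases hN0 : N = 0
    · have h6 := h5.rank hB 1
      rw [hN0, pow_one, Submodule.map_zero, finrank_bot, ← parts_sum, hμμ'] at h6
      have h7 : ∀ a ∈ μ, a = 1 := by
        intro a ha
        have h8 : a - 1 ∈ μ.map fun x => x - 1 := Multiset.mem_map.2 ⟨a, ha, rfl⟩
        have h9 := Multiset.sum_eq_zero_iff.1 h6.symm _ h8
        have := (hμ a ha).1
        omega
      have h8 : μ = Multiset.replicate (2 * d) 1 := by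
        rw [Multiset.eq_replicate]
        refine ⟨?_, h7⟩
        have h9 : μ = Multiset.replicate (Multiset.card μ) 1 := Multiset.eq_replicate_card.2 h7
        rw [h9, Multiset.sum_replicate] at hsum
        simpa using hsum
      refine ⟨Multiset.replicate m 1, ?_, by simp, ?_⟩
      · rw [h8]
        exact (Multiset.replicate_le_replicate 1).2 (by omega)
      · intro a ha
        rw [Multiset.count_replicate]
        split_ifs
        · exact hme
        · exact Even.zero
    obtain ⟨y, hy, hyp, hyW, hy1⟩ := exists_isom_of_skew (p := p) hB h1 h4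
    obtain ⟨W, ⟨hWm, hWn⟩, hW⟩ := h y hy ⟨1, by rw [hyp, one_smul]⟩ (fun z hz =>
      hN0 (hy1 (eq_one_of_scalar hB hV (exists_ne_zero' (by omega)) hy hodd hyp hz)))
    have hWN : Inv N W := (hyW W).1 hW
    have hperp : ∀ W, Inv N W → Inv N (hB.perp W) := fun W hW => h1.inv_perp hB hW
    obtain ⟨ν, hν, hν1⟩ := exists_jt hB hperp (step_symp h2 hB h1 h4) W hWN hWn
    have hWp := hB.nd_perp_inf hV hWn le_top
    rw [inf_top_eq] at hWp
    obtain ⟨ν', hν', hν'1⟩ := exists_jt hB hperp (step_symp h2 hB h1 h4) (hB.perp W) (hperp _ hWN) hWp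
    have hadd := hν.add hB hν' fun u hu w hw => hB.eq_zero_comm.1 (hw u hu)
    rw [(hB.isCompl_perp hWn).sup_eq_top] at hadd
    have hall : ∀ x ∈ ν + ν', PSymp p x.1 x.2 := by
      intro x hx
      rcases Multiset.mem_add.1 hx with h | h
      · exact hν1 x h
      · exact hν'1 x h
    have heq : μ = parts (ν + ν') := by
      apply multiset_eq_of_sums (fun a ha => (hμ a ha).1)
      · intro a ha
        obtain ⟨x, hx, rfl⟩ := mem_parts ha
        exact (hall x hx).pos.1
      · intro j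
        rw [parts_sum, ← hadd.rank hB j, h5.rank hB j, ← parts_sum, hμμ']
    refine ⟨parts ν, ?_, ?_, parity_parts hν1⟩
    · rw [heq, parts_add]
      exact Multiset.le_add_right _ _
    · rw [parts_sum', ← hν.finrank_eq hB, hWm]
  · rintro h T hT ⟨z, hz⟩ hns
    obtain ⟨hz0, hy, hyr⟩ := normalize_odd hB hV (exists_ne_zero' (by omega)) hT hodd hz
    obtain ⟨N, h1, h4, hyW⟩ := exists_skew_of_isom (p := p) hB hy hyr
    obtain ⟨μ, hμ, hμ1⟩ := exists_jt hB (fun W hW => h1.inv_perp hB hW) (step_symp h2 hB h1 h4) ⊤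
      (fun _ _ => trivial) hV
    have hd' := hμ.finrank_eq hB
    rw [finrank_top, hfr] at hd'
    obtain ⟨ν₀, hν₀, hs, hpar⟩ := h (parts μ) (by
      intro a ha
      obtain ⟨x, hx, rfl⟩ := mem_parts ha
      exact (hμ1 x hx).pos) (parity_parts hμ1) (by rw [parts_sum', hd'])
    obtain ⟨ν, hν, hνp⟩ := exists_sub_pairs hμ1 ν₀ hν₀ hpar
    obtain ⟨W, -, hW⟩ := hμ.sub hν
    refine ⟨W, ⟨?_, hW.nd hB⟩, (inv_smul_iff' hz0).1 ((hyW W).2 hW.inv)⟩
    rw [hW.finrank_eq hB, ← parts_sum', hνp, hs]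

end Cfsg.Agent.H951
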