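import Cfsg.Agent.H951.Main
/-!
# Inductive construction of nondegenerate invariant subspaces; anti-isometric involutions
-/

set_option autoImplicit false
set_option linter.unusedSectionVars false
set_option linter.unusedVariables false

namespace Cfsg.Agent.H951

open Module Polynomial

variable {F V : Type*} [Field F] [AddCommGroup V] [Module F V] [FiniteDimensional F V]
variable {σ : F →+* F} {ε : F} {B : V → V → F} {U W : Submodule F V} {x : Module.End F V}

/-- From blocks of dimension `c` to all dimensions `c j`. -/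
theorem exists_nd_of_step (hB : Frm σ ε B) (hperp : ∀ W, Inv x W → Inv x (hB.perp W)) {c : ℕ} (hc : 0 < c)
    (step : ∀ W, Inv x W → Nd B W → W ≠ ⊥ → ∃ W' ≤ W, Inv x W' ∧ Nd B W' ∧ finrank F W' = c)
    (hW : Inv x W) (hWn : Nd B W) {j : ℕ} (hj : c * j ≤ finrank F W) :
    ∃ W' ≤ W, Inv x W' ∧ Nd B W' ∧ finrank F W' = c * j := by
  induction j with
  | zero => exact ⟨⊥, bot_le, inv_bot, nd_bot, by simp⟩
  | succ j ih =>
    obtain ⟨W₁, h1, h2, h3, h4⟩ := ih (le_trans (Nat.mul_le_mul_left _ (Nat.le_succ j)) hj)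
    have hT := hB.finrank_perp_inf h3 h1
    have hTn := hB.nd_perp_inf hWn h3 h1
    have hTi : Inv x (hB.perp W₁ ⊓ W) := (hperp _ h2).inf hW
    have hT0 : hB.perp W₁ ⊓ W ≠ ⊥ := by
      intro h0
      rw [h0, finrank_bot, h4] at hT
      rw [mul_add, mul_one] at hj
      omega
    obtain ⟨W₂, k1, k2, k3, k4⟩ := step _ hTi hTn hT0
    have h5 := hB.nd_sup k3 h3 (k1.trans inf_le_left)
    refine ⟨W₂ ⊔ W₁, sup_le (k1.trans inf_le_right) h1, k2.sup h2, h5.1, ?_⟩
    rw [finrank_sup_of_disj h5.2, k4, h4]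
    ring

section anti

variable {y : Module.End F V}

lemma ti_fx_of_anti (h2 : (2 : F) ≠ 0) (hy : ∀ u v, B (y u) (y v) = -1 * B u v) (hB : Frm σ ε B) : TI B (fx y) := by
  intro u hu v hv
  have h := hy u v
  rw [mem_fx.1 hu, mem_fx.1 hv] at h
  have h3 : 2 * B u v = 0 := by linear_combination h
  rcases mul_eq_zero.1 h3 with h | h
  · exact absurd h h2
  · exact h

lemma apply_cm_of_sq (hy2 : y ^ 2 = 1) {u : V} (hu : u ∈ cm y) : y u = -u := by
  obtain ⟨w, rfl⟩ := mem_cm.1 hu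
  have h : y (y w) = w := by
    rw [← Module.End.mul_apply, ← pow_two, hy2]; rfl
  rw [map_sub, h]; abel

lemma ti_cm_of_anti (h2 : (2 : F) ≠ 0) (hy2 : y ^ 2 = 1) (hy : ∀ u v, B (y u) (y v) = -1 * B u v) (hB : Frm σ ε B) :
    TI B (cm y) := by
  intro u hu v hv
  have h := hy u v
  rw [apply_cm_of_sq hy2 hu, apply_cm_of_sq hy2 hv, hB.neg_left, hB.neg_right] at h
  have h3 : 2 * B u v = 0 := by linear_combination h
  rcases mul_eq_zero.1 h3 with h | h
  · exact absurd h h2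
  · exact h

lemma two_ne_zero_cast (h2 : (2 : F) ≠ 0) : ((2 : ℕ) : F) ≠ 0 := by exact_mod_cast h2

/-- For an anti-isometric involution, `W ∩ V_+` and `W ∩ V_-` have half the dimension of a nondegenerate
invariant `W`. -/
lemma finrank_of_anti (h2 : (2 : F) ≠ 0) (hy2 : y ^ 2 = 1) (hy : ∀ u v, B (y u) (y v) = -1 * B u v) (hB : Frm σ ε B)
    (hW : Inv y W) (hWn : Nd B W) :
    2 * finrank F ↥(W ⊓ fx y) = finrank F W ∧ 2 * finrank F ↥(W ⊓ cm y) = finrank F W := by
  have h3 := hB.two_mul_finrank_le hWn (inf_le_left : W ⊓ fx y ≤ W) ((ti_fx_of_anti h2 hy hB).mono inf_le_right)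
  have h4 := hB.two_mul_finrank_le hWn (inf_le_left : W ⊓ cm y ≤ W) ((ti_cm_of_anti h2 hy2 hy hB).mono inf_le_right)
  have h5 := finrank_inf_add (two_ne_zero_cast h2) hy2 hW
  omega

lemma even_of_anti (h2 : (2 : F) ≠ 0) (hy2 : y ^ 2 = 1) (hy : ∀ u v, B (y u) (y v) = -1 * B u v) (hB : Frm σ ε B)
    (hW : Inv y W) (hWn : Nd B W) : Even (finrank F W) := by
  have h := finrank_of_anti h2 hy2 hy hB hW hWn
  exact ⟨finrank F ↥(W ⊓ fx y), by omega⟩

lemma injective_of_sq (hy2 : y ^ 2 = 1) : Function.Injective y := by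
  intro u v h
  have h1 : ∀ w, y (y w) = w := fun w => by rw [← Module.End.mul_apply, ← pow_two, hy2]; rfl
  rw [← h1 u, ← h1 v, h]

/-- Nondegenerate invariant planes. -/
lemma step_of_anti (h2 : (2 : F) ≠ 0) (hy2 : y ^ 2 = 1) (hy : ∀ u v, B (y u) (y v) = -1 * B u v) (hB : Frm σ ε B)
    (W : Submodule F V) (hW : Inv y W) (hWn : Nd B W) (h0 : W ≠ ⊥) :
    ∃ W' ≤ W, Inv y W' ∧ Nd B W' ∧ finrank F W' = 2 := by
  have hf := ti_fx_of_anti h2 hy hB
  have hc := ti_cm_of_anti h2 hy2 hy hB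
  have h3 := (finrank_of_anti h2 hy2 hy hB hW hWn).1
  have h4 : 0 < finrank F W := by
    rw [Nat.pos_iff_ne_zero]
    exact fun h => h0 (Submodule.finrank_eq_zero.1 h)
  have h5 : W ⊓ fx y ≠ ⊥ := by
    intro h; rw [h, finrank_bot] at h3; omega
  obtain ⟨u, hu, hu0⟩ := (Submodule.ne_bot_iff _).1 h5
  obtain ⟨v, hv, huv⟩ := hWn u hu.1 hu0
  rw [← inf_fx_sup_inf_cm (two_ne_zero_cast h2) hy2 hW] at hv
  obtain ⟨a, ha, b, hb, rfl⟩ := Submodule.mem_sup.1 hv
  rw [hB.add_right, hf u hu.2 a ha.2, zero_add] at huv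
  have hbu : B b u ≠ 0 := fun h => huv (hB.eq_zero_comm.1 h)
  have hb0 : b ≠ 0 := by rintro rfl; exact huv (hB.zero_right _)
  refine ⟨F ∙ u ⊔ F ∙ b, sup_le ((Submodule.span_singleton_le_iff_mem _ _).2 hu.1)
      ((Submodule.span_singleton_le_iff_mem _ _).2 hb.1), ?_, ?_, ?_⟩
  · apply Inv.sup
    · intro w hw
      obtain ⟨s, rfl⟩ := Submodule.mem_span_singleton.1 hw
      rw [map_smul, mem_fx.1 hu.2]
      exact hw
    · intro w hw
      obtain ⟨s, rfl⟩ := Submodule.mem_span_singleton.1 hw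
      rw [map_smul, apply_cm_of_sq hy2 hb.2, smul_neg]
      exact Submodule.neg_mem _ hw
  · intro w hw hw0
    obtain ⟨w₁, hw₁, w₂, hw₂, rfl⟩ := Submodule.mem_sup.1 hw
    obtain ⟨s, rfl⟩ := Submodule.mem_span_singleton.1 hw₁
    obtain ⟨t, rfl⟩ := Submodule.mem_span_singleton.1 hw₂
    by_cases hs : s = 0
    · refine ⟨u, Submodule.mem_sup_left (Submodule.mem_span_singleton_self u), ?_⟩
      subst hs
      have ht : t ≠ 0 := by rintro rfl; apply hw0; simp
      rw [zero_smul, zero_add, hB.smul_left]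
      exact mul_ne_zero ht hbu
    · refine ⟨b, Submodule.mem_sup_right (Submodule.mem_span_singleton_self b), ?_⟩
      rw [hB.add_left, hB.smul_left, hB.smul_left, hc b hb.2 b hb.2, mul_zero, add_zero]
      exact mul_ne_zero hs huv
  · have hd : F ∙ u ⊓ F ∙ b = ⊥ := by
      rw [eq_bot_iff]
      intro w hw
      obtain ⟨s, rfl⟩ := Submodule.mem_span_singleton.1 hw.1
      obtain ⟨t, ht⟩ := Submodule.mem_span_singleton.1 hw.2
      have h6 : B (t • b) u = 0 := by
        rw [ht, hB.smul_left, hf u hu.2 u hu.2, mul_zero]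
      rw [hB.smul_left] at h6
      have ht0 : t = 0 := (mul_eq_zero.1 h6).resolve_right hbu
      rw [← ht, ht0, zero_smul]
      exact Submodule.zero_mem _
    rw [finrank_sup_of_disj hd, finrank_span_singleton hu0, finrank_span_singleton hb0]

/-- Nondegenerate invariant subspaces of every even dimension. -/
theorem exists_nd_of_anti (h2 : (2 : F) ≠ 0) (hy2 : y ^ 2 = 1) (hy : ∀ u v, B (y u) (y v) = -1 * B u v)
    (hB : Frm σ ε B) (hV : Nd B (⊤ : Submodule F V)) {m : ℕ} (hm : Even m) (hmV : m ≤ finrank F V) :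
    ∃ W : Submodule F V, Inv y W ∧ Nd B W ∧ finrank F W = m := by
  obtain ⟨j, rfl⟩ := hm
  obtain ⟨W, -, h1, h2, h3⟩ := exists_nd_of_step hB
    (fun W hW => inv_perp_of_sim hB hy (injective_of_sq hy2) hW) two_pos
    (step_of_anti h2 hy2 hy hB) (W := ⊤) (fun _ _ => trivial) hV (j := j) (by rw [finrank_top]; omega)
  exact ⟨W, h1, h2, by omega⟩

/-- Involutive isometries: nondegenerate invariant subspaces of every (resp. even) dimension. -/
theorem exists_nd_of_invol (h2 : (2 : F) ≠ 0) (hy2 : y ^ 2 = 1) (hy : Isom B y) (hB : Frm σ ε B) (hK : Kind σ ε B)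
    (hV : Nd B (⊤ : Submodule F V)) {m : ℕ} (hm : σ = RingHom.id F → Even m) (hmV : m ≤ finrank F V) :
    ∃ W : Submodule F V, Inv y W ∧ Nd B W ∧ finrank F W = m := by
  have hr := two_ne_zero_cast h2
  have hc := hy.nd_cm hB hr hy2 hV
  have hf := hy.nd_fx hB hr hy2 hV
  have hd := finrank_fx_cm hr hy2
  obtain ⟨W₁, hW₁, hn₁, hd₁⟩ := exists_nd_sub hB hK hc (k := min m (finrank F ↥(cm y))) (min_le_right _ _) (by
    intro h
    rcases le_total m (finrank F ↥(cm y)) with h6 | h6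
    · rw [min_eq_left h6]; exact hm h
    · rw [min_eq_right h6]; exact even_of_kind hB hK hc h)
  obtain ⟨W₂, hW₂, hn₂, hd₂⟩ := exists_nd_sub hB hK hf (k := m - min m (finrank F ↥(cm y))) (by omega) (by
    intro h
    rcases le_total m (finrank F ↥(cm y)) with h6 | h6
    · rw [min_eq_left h6, Nat.sub_self]; exact Even.zero
    · rw [min_eq_right h6]
      obtain ⟨a, ha⟩ := hm h
      obtain ⟨b, hb⟩ := even_of_kind hB hK hc h
      exact ⟨a - b, by omega⟩)
  have hi₁ : Inv y W₁ := by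
    intro v hv
    rw [apply_cm_of_sq hy2 (hW₁ hv)]
    exact W₁.neg_mem hv
  obtain ⟨g1, g2, g3⟩ := glue_nd hB hy hW₁ hW₂ hi₁ hn₁ hn₂
  refine ⟨_, g1, g2, ?_⟩
  rw [g3, hd₁, hd₂]
  omega

/-- The determinant of an involution. -/
theorem det_of_invol (h2 : (2 : F) ≠ 0) (hy2 : y ^ 2 = 1) : LinearMap.det y = (-1) ^ finrank F ↥(cm y) := by
  have hc := isCompl_fx_cm (two_ne_zero_cast h2) hy2
  let e := Submodule.prodEquivOfIsCompl (fx y) (cm y) hc
  have h : y = e.conj ((LinearMap.id : fx y →ₗ[F] fx y).prodMap ((-1 : F) • (LinearMap.id : cm y →ₗ[F] cm y))) := by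
    ext v
    obtain ⟨⟨a, b⟩, rfl⟩ := e.surjective v
    rw [LinearEquiv.conj_apply_apply, e.symm_apply_apply]
    have e1 : e (a, b) = (a : V) + b := Submodule.coe_prodEquivOfIsCompl' _ _ _ (a, b)
    have e2 : e ((LinearMap.id : fx y →ₗ[F] fx y).prodMap ((-1 : F) • (LinearMap.id : cm y →ₗ[F] cm y)) (a, b)) =
      (a : V) + ((-1 : F) • b : cm y) := Submodule.coe_prodEquivOfIsCompl' _ _ _ (a, (-1 : F) • b)
    rw [e1, e2, map_add, mem_fx.1 a.2, apply_cm_of_sq hy2 b.2]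
    simp
  have h3 : LinearMap.det y = LinearMap.det ((LinearMap.id : fx y →ₗ[F] fx y).prodMap
      ((-1 : F) • (LinearMap.id : cm y →ₗ[F] cm y))) := by
    conv_lhs => rw [h]
    exact LinearMap.det_conj ((LinearMap.id : fx y →ₗ[F] fx y).prodMap
      ((-1 : F) • (LinearMap.id : cm y →ₗ[F] cm y))) e
  rw [h3, LinearMap.det_prodMap, LinearMap.det_id, LinearMap.det_smul, LinearMap.det_id, one_mul, mul_one]

end anti

end Cfsg.Agent.H951
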