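import Cfsg.Agent.H951.TI
import Cfsg.Agent.H951.SNd
/-!
# Isometries of prime order with prescribed eigenvalue types
-/

set_option autoImplicit false
set_option linter.unusedSectionVars false
set_option linter.unusedVariables false

namespace Cfsg.Agent.H951

open Module Polynomial

section poly

variable {F : Type*} [Field F] {r : ℕ}

/-- For irreducible factors `f₀, f` of the `r`-th cyclotomic polynomial, some `f(X^k)` is divisible by `f₀`. -/
theorem exists_pow_dvd [Fact r.Prime] (hr : (r : F) ≠ 0) {f₀ f : F[X]} (hf₀ : Irreducible f₀)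
    (hd₀ : f₀ ∣ cyclotomic r F) (hf : Irreducible f) (hd : f ∣ cyclotomic r F) :
    ∃ k, ¬ r ∣ k ∧ f₀ ∣ f.comp (X ^ k) := by
  have hrP : r.Prime := Fact.out
  have : Fact (Irreducible f₀) := ⟨hf₀⟩
  have hrE : ((r : ℕ) : AdjoinRoot f₀) ≠ 0 := by
    intro h
    apply hr
    have h1 : algebraMap F (AdjoinRoot f₀) (r : F) = 0 := by rw [map_natCast]; exact h
    exact (map_eq_zero _).1 h1
  have : NeZero ((r : ℕ) : AdjoinRoot f₀) := ⟨hrE⟩
  set ζ := AdjoinRoot.root f₀ with hζ
  have hroot : ∀ g : F[X], f₀ ∣ g → aeval ζ g = 0 := by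
    rintro g ⟨t, rfl⟩
    rw [map_mul, AdjoinRoot.aeval_eq, AdjoinRoot.mk_self, zero_mul]
  have hprim : IsPrimitiveRoot ζ r := by
    rw [← isRoot_cyclotomic_iff, IsRoot.def, ← map_cyclotomic r (algebraMap F (AdjoinRoot f₀)), eval_map_algebraMap]
    exact hroot _ hd₀
  have hdE : f.map (algebraMap F (AdjoinRoot f₀)) ∣ ∏ μ ∈ primitiveRoots r (AdjoinRoot f₀), (X - C μ) := by
    rw [← cyclotomic_eq_prod_X_sub_primitiveRoots hprim, ← map_cyclotomic r (algebraMap F (AdjoinRoot f₀))]
    exact Polynomial.map_dvd _ hd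
  have hnu : ¬ IsUnit (f.map (algebraMap F (AdjoinRoot f₀))) := by
    rw [Polynomial.isUnit_map]
    exact hf.not_isUnit
  have hne : f.map (algebraMap F (AdjoinRoot f₀)) ≠ 0 := (Polynomial.map_ne_zero_iff (algebraMap F _).injective).2 hf.ne_zero
  obtain ⟨g, hg, hgf⟩ := WfDvdMonoid.exists_irreducible_factor hnu hne
  obtain ⟨μ, hμ, hgμ⟩ := (hg.prime.dvd_finsetProd_iff _).1 (hgf.trans hdE)
  have hassoc : Associated g (X - C μ) := hg.associated_of_dvd (irreducible_X_sub_C μ) hgμ
  have hμf : aeval μ f = 0 := by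
    rw [← eval_map_algebraMap, ← IsRoot.def, ← dvd_iff_isRoot]
    exact hassoc.symm.dvd.trans hgf
  rw [mem_primitiveRoots hrP.pos] at hμ
  obtain ⟨k, hk, hkμ⟩ := hprim.eq_pow_of_pow_eq_one hμ.pow_eq_one
  refine ⟨k, ?_, ?_⟩
  · intro hdk
    rw [← hkμ] at hμ
    have h1 : ζ ^ k = 1 := by
      obtain ⟨t, rfl⟩ := hdk
      rw [pow_mul, hprim.pow_eq_one, one_pow]
    rw [h1] at hμ
    exact hrP.one_lt.ne (hμ.unique IsPrimitiveRoot.one).symm
  · rw [← AdjoinRoot.mk_eq_zero, ← AdjoinRoot.aeval_eq, aeval_comp, map_pow, aeval_X, hkμ]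
    exact hμf

end poly

variable {F V : Type*} [Field F] [AddCommGroup V] [Module F V] [FiniteDimensional F V]
variable {σ : F →+* F} {ε : F} {B : V → V → F} {U W : Submodule F V} {x y : Module.End F V} {r : ℕ}

lemma aeval_comp_pow (f : F[X]) (k : ℕ) : aeval y (f.comp (X ^ k)) = aeval (y ^ k) f := by
  rw [aeval_comp, map_pow, aeval_X]

lemma fx_le_fx_pow (k : ℕ) : fx y ≤ fx (y ^ k) := by
  intro v hv
  rw [mem_fx] at *
  induction k with
  | zero => simp
  | succ k ih => rw [pow_succ, Module.End.mul_apply, hv, ih]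

lemma cm_pow_le (k : ℕ) : cm (y ^ k) ≤ cm y := by
  intro v hv
  obtain ⟨w, rfl⟩ := mem_cm.1 hv
  induction k with
  | zero => simp
  | succ k ih =>
    have h1 : (y ^ (k + 1)) w - w = (y ((y ^ k) w) - (y ^ k) w) + ((y ^ k) w - w) := by
      rw [pow_succ', Module.End.mul_apply]; abel
    rw [h1]
    exact Submodule.add_mem _ (mem_cm.2 ⟨_, rfl⟩) (ih (mem_cm.2 ⟨w, rfl⟩))

lemma cm_pow_eq [Fact r.Prime] (hyr : y ^ r = 1) {k : ℕ} (hk : ¬ r ∣ k) : cm (y ^ k) = cm y := by
  have hrP : r.Prime := Fact.out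
  apply le_antisymm (cm_pow_le k)
  have hco : Nat.Coprime k r := (Nat.coprime_comm.1 ((hrP.coprime_iff_not_dvd).2 hk))
  obtain ⟨l, -, hl⟩ := Nat.exists_mul_mod_eq_one_of_coprime hco hrP.one_lt
  have h1 : (y ^ k) ^ l = y := by
    rw [← pow_mul, ← Nat.div_add_mod (k * l) r, hl, pow_add, pow_mul, hyr, one_pow, one_mul, pow_one]
  conv_lhs => rw [← h1]
  exact cm_pow_le l

/-! ### polynomials in a glued isometry -/

section glue

/-- `y` is supported on `U`, `x` is trivial on `U`. -/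
lemma glue_pow_U (hxU : U ≤ fx x) (hyc : cm y ≤ U) (n : ℕ) {u : V} (hu : u ∈ U) : ((x * y) ^ n) u = (y ^ n) u ∧ (y ^ n) u ∈ U := by
  induction n with
  | zero => exact ⟨rfl, hu⟩
  | succ n ih =>
    have h1 : (y ^ (n + 1)) u ∈ U := by
      rw [pow_succ', Module.End.mul_apply]
      have h2 : y ((y ^ n) u) - (y ^ n) u ∈ U := hyc (mem_cm.2 ⟨_, rfl⟩)
      have := U.add_mem h2 ih.2
      rwa [sub_add_cancel] at this
    refine ⟨?_, h1⟩
    rw [pow_succ', Module.End.mul_apply, ih.1, Module.End.mul_apply, ← Module.End.mul_apply y, ← pow_succ',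
      mem_fx.1 (hxU h1)]

lemma glue_pow_C {W : Submodule F V} (hxW : Inv x W) (hyW : W ≤ fx y) (n : ℕ) {v : V} (hv : v ∈ W) :
    ((x * y) ^ n) v = (x ^ n) v := by
  induction n with
  | zero => rfl
  | succ n ih =>
    rw [pow_succ', Module.End.mul_apply, ih, Module.End.mul_apply, mem_fx.1 (hyW (hxW.pow n v hv)), pow_succ',
      Module.End.mul_apply]

lemma aeval_congr {x y : Module.End F V} {v : V} (h : ∀ n : ℕ, (x ^ n) v = (y ^ n) v) (f : F[X]) :
    aeval x f v = aeval y f v := by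
  induction f using Polynomial.induction_on' with
  | add p q hp hq => rw [map_add, map_add, LinearMap.add_apply, LinearMap.add_apply, hp, hq]
  | monomial n a =>
    rw [aeval_monomial, aeval_monomial, Module.End.mul_apply, Module.End.mul_apply, h n]

end glue

/-- Elements with all eigenvalues of one type. -/
theorem exists_elt_kill (hB : Frm σ ε B) (hK : Kind σ ε B) (hV : Nd B (⊤ : Submodule F V)) (hr : (r : F) ≠ 0) {c : ℕ}
    (hce : σ = RingHom.id F → Even c) {f : F[X]}
    (hblk : ∀ U : Submodule F V, Nd B U → finrank F U = c →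
      ∃ y : Module.End F V, Isom B y ∧ y ^ r = 1 ∧ hB.perp U ≤ fx y ∧ cm y = U ∧ ∀ u ∈ U, aeval y f u = 0) (M : ℕ)
    (hM : c * M ≤ finrank F V) : ∃ x : Module.End F V, Isom B x ∧ x ^ r = 1 ∧ finrank F ↥(cm x) = c * M ∧
      ∀ u ∈ cm x, aeval x f u = 0 := by
  induction M with
  | zero =>
    have : cm (1 : Module.End F V) = ⊥ := by
      rw [eq_bot_iff]
      intro v hv
      obtain ⟨w, rfl⟩ := mem_cm.1 hv
      simp
    refine ⟨1, fun u v => rfl, one_pow _, ?_, ?_⟩
    · rw [this]; simp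
    · intro u hu
      rw [this, Submodule.mem_bot] at hu
      rw [hu, map_zero]
  | succ M ih =>
    rw [mul_add, mul_one] at hM
    obtain ⟨x, hx, hxr, hxd, hxk⟩ := ih (by omega)
    have h1 := hx.nd_fx hB hr hxr hV
    have h2 := finrank_fx_cm hr hxr
    obtain ⟨U, hUx, hU, hUc⟩ := exists_nd_sub hB hK h1 (k := c) (by omega) hce
    obtain ⟨y, hy, hyr, hyp, hyc, hyk⟩ := hblk U hU hUc
    have h3 := glue_comm hB hU hx hUx hyc.le hyp
    have h4 := glue_cm hB hU hx hUx hyc.le hyp
    refine ⟨x * y, isom_mul hx hy, ?_, ?_, ?_⟩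
    · rw [(show Commute x y from h3).mul_pow, hxr, hyr, one_mul]
    · rw [h4.1, finrank_sup_of_disj h4.2, hxd, hyc, hUc, mul_add, mul_one]
    · intro v hv
      rw [h4.1] at hv
      obtain ⟨a, ha, b, hb, rfl⟩ := Submodule.mem_sup.1 hv
      rw [hyc] at hb
      rw [map_add, aeval_congr (fun n => glue_pow_C inv_cm ((glue_fx hB hU hx hUx hyc.le hyp).trans hyp) n ha) f,
        aeval_congr (fun n => (glue_pow_U hUx hyc.le n hb).1) f, hxk a ha, hyk b hb, add_zero]

/-- Adding a block of a new type. -/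
theorem glue_types (hB : Frm σ ε B) (hV : Nd B (⊤ : Submodule F V)) (hU : Nd B U) (hx : Isom B x) (hUx : U ≤ fx x)
    (hyp : hB.perp U ≤ fx y) (hyc : cm y = U) {f g : F[X]} (hfg : IsCoprime f g)
    (hxk : ∀ u ∈ cm x, aeval x f u = 0) (hyk : ∀ u ∈ U, aeval y g u = 0)
    (hirr : ∀ W ≤ U, Inv y W → TI B W → W = ⊥) {D : ℕ}
    (hD : ∀ W ≤ cm x, Inv x W → TI B W → 2 * finrank F W ≤ D) :
    (∀ u ∈ cm (x * y), aeval (x * y) (f * g) u = 0) ∧
    ∀ W ≤ cm (x * y), Inv (x * y) W → TI B W → 2 * finrank F W ≤ D := by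
  have h4 := glue_cm hB hU hx hUx hyc.le hyp
  have hxC : ∀ (h : F[X]) (v : V), v ∈ cm x → aeval (x * y) h v = aeval x h v := fun h v hv =>
    aeval_congr (fun n => glue_pow_C inv_cm ((glue_fx hB hU hx hUx hyc.le hyp).trans hyp) n hv) h
  have hyU : ∀ (h : F[X]) (v : V), v ∈ U → aeval (x * y) h v = aeval y h v := fun h v hv =>
    aeval_congr (fun n => (glue_pow_U hUx hyc.le n hv).1) h
  have hyi : Inv y U := by rw [← hyc]; exact inv_cm
  have hk : ∀ u ∈ cm (x * y), aeval (x * y) (f * g) u = 0 := by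
    intro v hv
    rw [h4.1] at hv
    obtain ⟨a, ha, b, hb, rfl⟩ := Submodule.mem_sup.1 hv
    rw [hyc] at hb
    rw [map_add, hxC _ a ha, hyU _ b hb]
    have e1 : aeval x (f * g) a = 0 := by
      rw [mul_comm, map_mul, Module.End.mul_apply, hxk a ha, map_zero]
    have e2 : aeval y (f * g) b = 0 := by
      rw [map_mul, Module.End.mul_apply, hyk b hb, map_zero]
    rw [e1, e2, add_zero]
  refine ⟨hk, ?_⟩
  intro W hWc hWi hWt
  obtain ⟨s, t, hst⟩ := hfg
  have hWx : W ≤ cm x := by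
    intro w hw
    -- the part killed by g
    have hg0 : ∀ v ∈ W, aeval (x * y) g v = 0 → v = 0 := by
      intro v hv hgv
      have hvU : v ∈ U := by
        have hv' := hWc hv
        rw [h4.1] at hv'
        obtain ⟨a, ha, b, hb, rfl⟩ := Submodule.mem_sup.1 hv'
        rw [hyc] at hb
        rw [map_add, hxC _ a ha, hyU _ b hb, hyk b hb, add_zero] at hgv
        have ha0 : a = 0 := by
          have e1 : aeval x (s * f + t * g) a = a := by rw [hst]; simp
          rw [← e1, map_add, map_mul, map_mul, LinearMap.add_apply, Module.End.mul_apply, Module.End.mul_apply,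
            hxk a ha, hgv, map_zero, map_zero, add_zero]
        rw [ha0, zero_add]
        exact hb
      have h5 : W ⊓ U = ⊥ := by
        apply hirr _ inf_le_right
        · intro u hu
          refine ⟨?_, hyi u hu.2⟩
          have h6 := hWi u hu.1
          rw [Module.End.mul_apply, mem_fx.1 (hUx (hyi u hu.2))] at h6
          exact h6
        · exact hWt.mono inf_le_left
      rw [← Submodule.mem_bot F, ← h5]
      exact ⟨hv, hvU⟩
    have h6 : aeval (x * y) (s * f) w = 0 := by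
      apply hg0
      · exact hWi.aeval _ w hw
      · rw [← Module.End.mul_apply, ← map_mul]
        have : g * (s * f) = s * (f * g) := by ring
        rw [this, map_mul, Module.End.mul_apply, hk w (hWc hw), map_zero]
    have hw' := hWc hw
    rw [h4.1] at hw'
    obtain ⟨a, ha, b, hb, rfl⟩ := Submodule.mem_sup.1 hw'
    rw [hyc] at hb
    rw [map_add, hxC _ a ha, hyU _ b hb] at h6
    have e1 : aeval x (s * f) a = 0 := by rw [map_mul, Module.End.mul_apply, hxk a ha, map_zero]
    rw [e1, zero_add] at h6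
    have hb0 : b = 0 := by
      have e2 : aeval y (s * f + t * g) b = b := by rw [hst]; simp
      rw [← e2, map_add, LinearMap.add_apply, h6, map_mul, Module.End.mul_apply, hyk b hb, map_zero, add_zero]
    rw [hb0, add_zero]
    exact ha
  apply hD W hWx _ hWt
  intro w hw
  have h5 := hWi w hw
  have h6 : w ∈ fx y := ((glue_fx hB hU hx hUx hyc.le hyp).trans hyp) (hWx hw)
  rw [Module.End.mul_apply, mem_fx.1 h6] at h5
  exact h5

end Cfsg.Agent.H951
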