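import Cfsg.Agent.H951.UNum
/-!
# Nondegenerate `m`-spaces of the unitary space: `r ≠ 2, p`, `i ≠ 2`
-/

set_option autoImplicit false
set_option linter.unusedSectionVars false
set_option linter.unusedVariables false

namespace Cfsg.Agent.H951

open Module Polynomial Cfsg

variable {F : Type*} [Field F] [Fintype F] {q n r : ℕ}

lemma ord_pos_of_sq [Fact r.Prime] (hF : Fintype.card F = q ^ 2) (hr : (r : F) ≠ 0) {i : ℕ}
    (hi : i = orderOf (q : ZMod r)) : 0 < i := by
  have h := ord_pos (F := F) hr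
  rw [hF] at h
  push_cast at h
  rw [hi, orderOf_pos_iff, isOfFinOrder_iff_pow_eq_one]
  rw [orderOf_pos_iff, isOfFinOrder_iff_pow_eq_one] at h
  obtain ⟨k, hk, h⟩ := h
  exact ⟨2 * k, by omega, by rw [pow_mul]; exact h⟩

lemma coprime_of_ne_two [Fact r.Prime] (hr2 : r ≠ 2) {i : ℕ} (hi : i = orderOf (q : ZMod r)) (hi2 : i ≠ 2) :
    Nat.Coprime r (q + 1) := by
  have hrP : r.Prime := Fact.out
  rw [hrP.coprime_iff_not_dvd]
  intro h
  rw [← ZMod.natCast_eq_zero_iff] at h
  push_cast at h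
  apply hi2
  have h1 : (q : ZMod r) = -1 := by linear_combination h
  rw [hi, h1]
  refine orderOf_eq_prime (p := 2) (by ring) ?_
  intro h2
  have h3 : ((2 : ℕ) : ZMod r) = 0 := by push_cast; linear_combination -h2
  rw [ZMod.natCast_eq_zero_iff] at h3
  exact hr2 ((Nat.prime_dvd_prime_iff_eq hrP Nat.prime_two).1 h3)

lemma toLin'_scalar {ι : Type*} [Fintype ι] [DecidableEq ι] {x : Matrix ι ι F} {z : F} {k : ℕ}
    (h : x ^ k = z • (1 : Matrix ι ι F)) : (Matrix.toLin' x) ^ k = z • 1 := by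
  rw [pow_toLin', h, map_smul, Matrix.toLin'_one]
  rfl

lemma scalar_of_toLin' {ι : Type*} [Fintype ι] [DecidableEq ι] {x : Matrix ι ι F} {z : F}
    (h : Matrix.toLin' x = z • 1) : x = z • (1 : Matrix ι ι F) := by
  apply Matrix.toLin'.injective
  rw [h, map_smul, Matrix.toLin'_one]
  rfl

theorem nd_unitary_ne2 {p : ℕ} [Fact p.Prime] [CharP F p] (hF : Fintype.card F = q ^ 2) (m : ℕ) (hn : 3 ≤ n)
    (hm : 1 ≤ m) (hmn : 2 * m < n) [Fact r.Prime] (hr2 : r ≠ 2) (hr : (r : F) ≠ 0)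
    (hΩ : r ∣ Nat.card {W : Submodule F (Fin n → F) // finrank F ↥W = m ∧ Nd (hermForm n F q) W}) {i c : ℕ}
    (hi : i = orderOf (q : ZMod r))
    (hc : c = if i % 4 = 0 then i else if i % 4 = 2 then i / 2 else 2 * i) (hi2 : i ≠ 2) :
    (∀ x : Matrix.SpecialLinearGroup (Fin n) F, x ∈ Cfsg.SU n F q →
      (∃ z : F, ((x ^ r : Matrix.SpecialLinearGroup (Fin n) F) : Matrix (Fin n) (Fin n) F) = z • (1 : Matrix (Fin n) (Fin n) F)) →
      (∀ z : F, (x : Matrix (Fin n) (Fin n) F) ≠ z • (1 : Matrix (Fin n) (Fin n) F)) →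
      ∃ W : Submodule F (Fin n → F), finrank F ↥W = m ∧ Nd (hermForm n F q) W ∧
        W.map (Matrix.toLin' (x : Matrix (Fin n) (Fin n) F)) ≤ W) ↔ (c ≤ m ∧ m % c ≤ n % c) := by
  have hq := ClassicalGeometry.GUBasic.two_le hF
  have hi0 := ord_pos_of_sq hF hr hi
  have hc0 : 0 < c := by rw [hc]; split_ifs <;> omega
  obtain ⟨σ, hσ, hσ2, hne⟩ := exists_sig hF
  have hB := frm_herm hσ hσ2 n
  have hK : Kind σ 1 (hermForm n F q) := kind_herm hne n
  have hV : Nd (hermForm n F q) (⊤ : Submodule F (Fin n → F)) := nd_herm (by omega)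
  have hco := coprime_of_ne_two hr2 hi hi2
  have hbn := blockNum_unitary hr2 hσ hσ2 (p := p) hF hi hi0 hc
  have hfr : finrank F (Fin n → F) = n := by simp
  have hr0 : r ≠ 0 := (Fact.out : r.Prime).ne_zero
  have hdiv : ∀ y : Module.End F (Fin n → F), Isom (hermForm n F q) y → y ^ r = 1 → ∀ W' : Submodule F (Fin n → F),
      Inv y W' → Nd (hermForm n F q) W' → W' ≤ cm y → c ∣ finrank F W' := fun y hy hyr W' h1 h2 h3 =>
    dvd_finrank_unitary hr2 hr hF hσ hne hB hi hi0 hc hy hyr W' h1 h2 h3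
  obtain ⟨hcn, hmod⟩ := mod_lt_of_dvd hF (m := m) (by omega) hr2 hi hi0 hc hΩ
  constructor
  · intro h
    obtain ⟨y, hy, hyr, hyd⟩ := exists_elt_unitary hr2 hr hF hσ hne hB hV hi hi0 hc (M := n / c)
      (by rw [hfr]; exact Nat.mul_div_le n c)
    obtain ⟨x, hx, hxy⟩ := exists_SU hy (det_eq_one_of_coprime hF hy hyr hco)
    have hM : (x : Matrix (Fin n) (Fin n) F) ^ r = 1 := by
      apply Matrix.toLin'.injective
      rw [← pow_toLin', hxy, hyr, Matrix.toLin'_one]
      rfl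
    obtain ⟨W, hWm, hW, hWx⟩ := h x hx ⟨1, by
      rw [one_smul, Matrix.SpecialLinearGroup.coe_pow, hM]⟩ (by
      intro z hz
      have h1 : y = z • 1 := by
        rw [← hxy, hz, map_smul, Matrix.toLin'_one]; rfl
      -- then cm y = ⊥ or ⊤, fixed vectors
      have h2 : z ^ r = 1 ∧ z ^ (q + 1) = 1 := by
        have hne0 : ∃ v : Fin n → F, v ≠ 0 := ⟨Pi.single ⟨0, by omega⟩ 1, by
          intro h
          have := congrFun h ⟨0, by omega⟩
          simp at this⟩
        constructor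
        · obtain ⟨v, hv⟩ := hne0
          have h3 : (y ^ r) v = z ^ r • v := by
            rw [h1, smul_pow_end, one_pow]; rfl
          rw [hyr] at h3
          change v = z ^ r • v at h3
          have h4 : (z ^ r - 1) • v = 0 := by rw [sub_smul, ← h3, one_smul, sub_self]
          rcases smul_eq_zero.1 h4 with h | h
          · linear_combination h
          · exact absurd h hv
        · exact norm_of_scalar hσ hB hV hne0 (T := y) (r := 1) hy (by rw [pow_one, h1])
      have h3 : orderOf z ∣ Nat.gcd r (q + 1) :=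
        Nat.dvd_gcd (orderOf_dvd_of_pow_eq_one h2.1) (orderOf_dvd_of_pow_eq_one h2.2)
      rw [hco, Nat.dvd_one, orderOf_eq_one_iff] at h3
      have h4 : cm y = ⊥ := by
        rw [eq_bot_iff]
        intro v hv
        obtain ⟨w, rfl⟩ := mem_cm.1 hv
        rw [h1, h3]
        simp
      rw [h4, finrank_bot] at hyd
      have h5 : 1 ≤ n / c := (Nat.one_le_div_iff hc0).2 hcn
      have : c * 1 ≤ c * (n / c) := Nat.mul_le_mul_left _ h5
      omega)
    have hWi : Inv y W := by rw [inv_iff_map, ← hxy]; exact hWx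
    have := le_of_inv_nd hB hV hc0 hr hy hyr (hdiv y hy hyr) (by rw [hfr]; exact hyd) (by rw [hfr]; exact hmod)
      hWi hW hWm
    rwa [hfr] at this
  · rintro ⟨hcm, hmc⟩ x hx ⟨z, hz⟩ hns
    set T := Matrix.toLin' (x : Matrix (Fin n) (Fin n) F) with hT
    have hTi : Isom (hermForm n F q) T := isom_SU hx
    have hTr : T ^ r = z • 1 := toLin'_scalar (by rw [← Matrix.SpecialLinearGroup.coe_pow]; exact hz)
    have hne0 : ∃ v : Fin n → F, v ≠ 0 := ⟨Pi.single ⟨0, by omega⟩ 1, by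
      intro h
      have := congrFun h ⟨0, by omega⟩
      simp at this⟩
    have hz1 := norm_of_scalar hσ hB hV hne0 hTi hTr
    obtain ⟨w, hw1, hw2⟩ := exists_root_of_coprime hz1 hco
    have hw0 : w ≠ 0 := by
      rintro rfl
      rw [zero_pow (by omega)] at hw1
      exact zero_ne_one hw1
    have hwi : w⁻¹ ^ (q + 1) = 1 := by rw [inv_pow, hw1, inv_one]
    have hy := isom_smul hσ hB hTi hwi
    have hyr : (w⁻¹ • T) ^ r = 1 := by
      rw [smul_pow_end, hTr, smul_smul, ← hw2, ← mul_pow, inv_mul_cancel₀ hw0, one_pow, one_smul]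
    obtain ⟨W, hWi, hW, hWm⟩ := exists_inv_nd hr hr2 hB hK hV hy hyr (hdiv _ hy hyr) hbn (m := m)
      (by rw [hfr]; omega) (fun h => absurd h hne) (by rw [hfr]; exact hmc)
    refine ⟨W, hWm, hW, ?_⟩
    rw [← inv_iff_map]
    exact (inv_smul_iff (inv_ne_zero hw0)).1 hWi

end Cfsg.Agent.H951
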