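import Cfsg.Agent.H951.UMat
import Cfsg.Agent.H951.Main
/-!
# Consequences of `r ∣ #Ω` (unitary, nondegenerate), and the case `r ≠ 2, p`, `i ≠ 2`
-/

set_option autoImplicit false
set_option linter.unusedSectionVars false
set_option linter.unusedVariables false

namespace Cfsg.Agent.H951

open Module Polynomial Cfsg

variable {F : Type*} [Field F] [Fintype F] {q n r : ℕ}

/-- The factor of the order of `GU_n`. -/
def uf (q k : ℕ) : ℕ := if Even k then q ^ (k + 1) + 1 else q ^ (k + 1) - 1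

lemma uf_pos (hq : 2 ≤ q) (k : ℕ) : 0 < uf q k := by
  unfold uf
  have : 2 ^ 1 ≤ q ^ (k + 1) := (Nat.pow_le_pow_left hq 1).trans (Nat.pow_le_pow_right (by omega) (by omega))
  split_ifs <;> omega

lemma uf_dvd_iff [Fact r.Prime] (hr2 : r ≠ 2) {i c : ℕ} (hq : 0 < q) (hi : i = orderOf (q : ZMod r))
    (hi0 : 0 < i) (hc : c = if i % 4 = 0 then i else if i % 4 = 2 then i / 2 else 2 * i) (k : ℕ) :
    r ∣ uf q k ↔ c ∣ k + 1 := by
  rw [← dvd_iff_c (q := q) hr2 hq hi hi0 hc (k := k + 1) (by omega), uf]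
  rcases Nat.even_or_odd k with he | ho
  · rw [if_pos he, if_neg (by rw [Nat.not_even_iff_odd]; exact he.add_one)]
  · rw [if_neg (Nat.not_even_iff_odd.2 ho), if_pos ho.add_one]

/-- If a prime `r` not dividing `q` divides the number of nondegenerate `m`-spaces, it divides one of the factors
`q^j - (-1)^j`, `n - m < j ≤ n`. -/
theorem exists_dvd_uf (hF : Fintype.card F = q ^ 2) {m : ℕ} (hm : m ≤ n) [Fact r.Prime] (hrq : ¬ r ∣ q)
    (hΩ : r ∣ Nat.card {W : Submodule F (Fin n → F) // finrank F ↥W = m ∧ Nd (hermForm n F q) W}) :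
    ∃ k, r ∣ uf q k ∧ n - m ≤ k ∧ k < n := by
  have hrP : r.Prime := Fact.out
  have hq := ClassicalGeometry.GUBasic.two_le hF
  have h1 := card_nd_unitary hF hm
  rw [Cfsg.Agent.S0277.result hF n, Cfsg.Agent.S0277.result hF (n - m)] at h1
  change _ * (_ * (_ * ∏ k ∈ Finset.range (n - m), uf q k)) = _ * ∏ k ∈ Finset.range n, uf q k at h1
  rw [← Finset.prod_range_mul_prod_Ico _ (Nat.sub_le n m)] at h1
  have hpos : 0 < ∏ k ∈ Finset.range (n - m), uf q k := Finset.prod_pos fun k _ => uf_pos hq k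
  have h2 : (Nat.card {W : Submodule F (Fin n → F) // finrank F ↥W = m ∧ Nd (hermForm n F q) W} *
      (Nat.card (Cfsg.GU m F q) * q ^ ((n - m) * (n - m - 1) / 2))) * (∏ k ∈ Finset.range (n - m), uf q k) =
      (q ^ (n * (n - 1) / 2) * ∏ k ∈ Finset.Ico (n - m) n, uf q k) * (∏ k ∈ Finset.range (n - m), uf q k) := by
    calc _ = Nat.card {W : Submodule F (Fin n → F) // finrank F ↥W = m ∧ Nd (hermForm n F q) W} *
        (Nat.card (Cfsg.GU m F q) * (q ^ ((n - m) * (n - m - 1) / 2) * ∏ k ∈ Finset.range (n - m), uf q k)) := by ring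
      _ = _ := h1
      _ = _ := by ring
  have h3 := Nat.eq_of_mul_eq_mul_right hpos h2
  have h4 : r ∣ q ^ (n * (n - 1) / 2) * ∏ k ∈ Finset.Ico (n - m) n, uf q k := by
    rw [← h3]
    exact hΩ.mul_right _
  have h5 : r ∣ ∏ k ∈ Finset.Ico (n - m) n, uf q k :=
    (hrP.dvd_mul.1 h4).resolve_left fun h => hrq (hrP.dvd_of_dvd_pow h)
  obtain ⟨k, hk, hk2⟩ := (hrP.prime.dvd_finsetProd_iff _).1 h5
  rw [Finset.mem_Ico] at hk
  exact ⟨k, hk2, hk.1, hk.2⟩

lemma not_dvd_of_ord [Fact r.Prime] {i : ℕ} (hi : i = orderOf (q : ZMod r)) (hi0 : 0 < i) : ¬ r ∣ q :=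
  fun h => natCast_ne_zero_of_ord hi hi0 ((ZMod.natCast_eq_zero_iff _ _).2 h)

/-- The consequence for `n mod c`. -/
theorem mod_lt_of_dvd (hF : Fintype.card F = q ^ 2) {m : ℕ} (hm : m ≤ n) [Fact r.Prime] (hr2 : r ≠ 2)
    {i c : ℕ} (hi : i = orderOf (q : ZMod r)) (hi0 : 0 < i)
    (hc : c = if i % 4 = 0 then i else if i % 4 = 2 then i / 2 else 2 * i)
    (hΩ : r ∣ Nat.card {W : Submodule F (Fin n → F) // finrank F ↥W = m ∧ Nd (hermForm n F q) W}) :
    c ≤ n ∧ n % c < m := by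
  have hq := ClassicalGeometry.GUBasic.two_le hF
  obtain ⟨k, hk, h1, h2⟩ := exists_dvd_uf hF hm (not_dvd_of_ord hi hi0) hΩ
  rw [uf_dvd_iff hr2 (by omega) hi hi0 hc] at hk
  obtain ⟨t, ht⟩ := hk
  have h3 := Nat.div_add_mod n c
  have hc0 : 0 < c := by rw [hc]; split_ifs <;> omega
  have ht0 : t ≠ 0 := by rintro rfl; omega
  have h4 : c * 1 ≤ c * t := Nat.mul_le_mul_left _ (Nat.pos_of_ne_zero ht0)
  refine ⟨by omega, ?_⟩
  have h5 : t ≤ n / c := (Nat.le_div_iff_mul_le hc0).2 (by rw [mul_comm]; omega)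
  have h6 : c * t ≤ c * (n / c) := Nat.mul_le_mul_left _ h5
  omega

/-- The scalar `z = x^r` of an isometry has norm one. -/
lemma norm_of_scalar {σ : F →+* F} (hσ : ∀ a, σ a = a ^ q) {V : Type*} [AddCommGroup V] [Module F V] {B : V → V → F}
    (hB : Frm σ 1 B) (hV : Nd B (⊤ : Submodule F V)) (hne : ∃ v : V, v ≠ 0) {T : Module.End F V} (hT : Isom B T)
    {z : F} (hz : T ^ r = z • 1) : z ^ (q + 1) = 1 := by
  obtain ⟨u, hu⟩ := hne
  obtain ⟨v, -, huv⟩ := hV u trivial hu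
  have h1 := hT.pow r u v
  rw [hz] at h1
  change B (z • u) (z • v) = B u v at h1
  rw [hB.smul_left, hB.smul_right, hσ] at h1
  have h2 : (z * z ^ q - 1) * B u v = 0 := by linear_combination h1
  rcases mul_eq_zero.1 h2 with h | h
  · rw [pow_succ']; linear_combination h
  · exact absurd h huv

/-- Scaling an isometry by an element of norm one. -/
lemma isom_smul {σ : F →+* F} (hσ : ∀ a, σ a = a ^ q) {V : Type*} [AddCommGroup V] [Module F V] {B : V → V → F}
    (hB : Frm σ 1 B) {T : Module.End F V} (hT : Isom B T) {w : F} (hw : w ^ (q + 1) = 1) : Isom B (w • T) := by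
  intro u v
  rw [LinearMap.smul_apply, LinearMap.smul_apply, hB.smul_left, hB.smul_right, hT, hσ]
  rw [pow_succ'] at hw
  linear_combination (B u v) * hw

lemma inv_smul_iff {V : Type*} [AddCommGroup V] [Module F V] {T : Module.End F V} {w : F} (hw : w ≠ 0)
    {W : Submodule F V} : Inv (w • T) W ↔ Inv T W := by
  constructor
  · intro h v hv
    have := W.smul_mem w⁻¹ (h v hv)
    rw [LinearMap.smul_apply, smul_smul, inv_mul_cancel₀ hw, one_smul] at this
    exact this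
  · intro h v hv
    exact W.smul_mem _ (h v hv)

lemma smul_pow_end {V : Type*} [AddCommGroup V] [Module F V] (T : Module.End F V) (w : F) (k : ℕ) :
    (w • T) ^ k = w ^ k • T ^ k := _root_.smul_pow w T k

/-- Roots of norm-one scalars, `gcd(r, q+1) = 1`. -/
lemma exists_root_of_coprime {z : F} (hz : z ^ (q + 1) = 1) (hco : Nat.Coprime r (q + 1)) :
    ∃ w : F, w ^ (q + 1) = 1 ∧ w ^ r = z := by
  rcases Nat.eq_zero_or_pos q with h0 | hpos
  · subst h0
    rw [zero_add, pow_one] at hz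
    exact ⟨1, by simp, by rw [hz]; simp⟩
  obtain ⟨s, -, hs⟩ := Nat.exists_mul_mod_eq_one_of_coprime hco (by omega)
  refine ⟨z ^ s, by rw [← pow_mul, mul_comm, pow_mul, hz, one_pow], ?_⟩
  rw [← pow_mul, mul_comm, ← Nat.div_add_mod (r * s) (q + 1), hs, pow_succ, pow_mul, hz, one_pow, one_mul]

end Cfsg.Agent.H951
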