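import Cfsg.Agent.H951.UEq2
/-!
# The statement about `SU_n(q)` in terms of linear maps; the cases `i = 2` and `r = 2`
-/

set_option autoImplicit false
set_option linter.unusedSectionVars false
set_option linter.unusedVariables false

namespace Cfsg.Agent.H951

open Module Polynomial Cfsg

variable {F : Type*} [Field F] [Fintype F] {q n m r : ℕ}

/-- Every element of order `r` of `PSU_n(q)` fixes a nondegenerate `m`-space. -/
def UStat (F : Type*) [Field F] (n q m r : ℕ) : Prop :=
  ∀ x : Matrix.SpecialLinearGroup (Fin n) F, x ∈ Cfsg.SU n F q →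
      (∃ z : F, ((x ^ r : Matrix.SpecialLinearGroup (Fin n) F) : Matrix (Fin n) (Fin n) F) = z • (1 : Matrix (Fin n) (Fin n) F)) →
      (∀ z : F, (x : Matrix (Fin n) (Fin n) F) ≠ z • (1 : Matrix (Fin n) (Fin n) F)) →
      ∃ W : Submodule F (Fin n → F), finrank F ↥W = m ∧ Nd (hermForm n F q) W ∧
        W.map (Matrix.toLin' (x : Matrix (Fin n) (Fin n) F)) ≤ W

lemma toLin'_smul_one (z : F) : Matrix.toLin' (z • (1 : Matrix (Fin n) (Fin n) F)) = z • 1 := by
  rw [map_smul, Matrix.toLin'_one]; rfl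

theorem ustat_iff : UStat F n q m r ↔ ∀ T : Module.End F (Fin n → F), Isom (hermForm n F q) T → LinearMap.det T = 1 →
    (∃ z : F, T ^ r = z • 1) → (∀ z : F, T ≠ z • 1) →
    ∃ W : Submodule F (Fin n → F), Inv T W ∧ Nd (hermForm n F q) W ∧ finrank F ↥W = m := by
  constructor
  · rintro h T hT hd ⟨z, hz⟩ hns
    obtain ⟨x, hx, rfl⟩ := exists_SU hT hd
    obtain ⟨W, h1, h2, h3⟩ := h x hx ⟨z, by
      apply Matrix.toLin'.injective
      rw [toLin'_smul_one, Matrix.SpecialLinearGroup.coe_pow, ← pow_toLin', hz]⟩ (fun z hz => hns z (by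
        rw [hz, toLin'_smul_one]))
    exact ⟨W, inv_iff_map.2 h3, h2, h1⟩
  · rintro h x hx ⟨z, hz⟩ hns
    have hd : LinearMap.det (Matrix.toLin' (x : Matrix (Fin n) (Fin n) F)) = 1 := by
      rw [LinearMap.det_toLin', x.2]
    obtain ⟨W, h1, h2, h3⟩ := h _ (isom_SU hx) hd ⟨z, by
      rw [pow_toLin', ← Matrix.SpecialLinearGroup.coe_pow, hz, toLin'_smul_one]⟩ (fun z hz => hns z (by
        apply Matrix.toLin'.injective
        rw [hz, toLin'_smul_one]))
    exact ⟨W, h3, h2, inv_iff_map.1 h1⟩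

lemma exists_ne_zero (hn : 0 < n) : ∃ v : Fin n → F, v ≠ 0 := ⟨Pi.single ⟨0, hn⟩ 1, by
  intro h
  have := congrFun h ⟨0, hn⟩
  simp at this⟩

/-- The case `r ∣ q + 1`, `r` odd. -/
theorem ustat_eq2 {p : ℕ} [Fact p.Prime] [CharP F p] (hF : Fintype.card F = q ^ 2) (hn : 3 ≤ n)
    (hm : 1 ≤ m) (hmn : 2 * m < n) [Fact r.Prime] (hr2 : r ≠ 2) (hr : (r : F) ≠ 0) {i c : ℕ}
    (hi : i = orderOf (q : ZMod r))
    (hc : c = if i % 4 = 0 then i else if i % 4 = 2 then i / 2 else 2 * i) (hi2 : i = 2) :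
    UStat F n q m r ↔ (r ∣ m ∨ padicValNat r n ≤ padicValNat r (q + 1)) := by
  have hrP : r.Prime := Fact.out
  have hq := ClassicalGeometry.GUBasic.two_le hF
  obtain ⟨σ, hσ, hσ2, hne⟩ := exists_sig hF
  have hc1 : c = 1 := by rw [hc, hi2]; rfl
  have hrq : r ∣ q + 1 := by
    have := (dvd_iff_c (q := q) hr2 (by omega) hi (by omega) hc (k := 1) one_pos).2 (by rw [hc1])
    simpa using this
  have hcard := succ_dvd_card_sub hF
  rw [ustat_iff]
  constructor
  · intro h
    by_contra hno
    push Not at hno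
    obtain ⟨hrm, hlt⟩ := hno
    set a := padicValNat r (q + 1) with ha
    -- r^(a+1) ∣ n
    have h1 : r ^ (a + 1) ∣ n := (pow_dvd_pow r hlt).trans pow_padicValNat_dvd
    obtain ⟨k₀, hk₀⟩ := h1
    have hn' : n = (r ^ a * k₀) * r := by rw [hk₀]; ring
    set k := r ^ a * k₀ with hk
    have haq : r ^ a ∣ q + 1 := pow_padicValNat_dvd
    obtain ⟨z, hz⟩ := exists_of_order (F := F) (d := r ^ a) (by rw [hcard]; exact haq.mul_right _)
    have hz1 : z ^ (q + 1) = 1 := by rw [← orderOf_dvd_iff_pow_eq_one, hz]; exact haq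
    have hzk : z ^ k = 1 := by rw [← orderOf_dvd_iff_pow_eq_one, hz]; exact Dvd.intro _ rfl
    have ha0 : 1 ≤ a := by
      rw [ha]
      exact one_le_padicValNat_of_dvd (by omega) hrq
    have hnr : ∀ b : F, b ^ r ≠ z := by
      intro b hb
      have hb1 := norm_of_root hr2 hF hrq hz1 hb
      have h2 : orderOf b ∣ q + 1 := orderOf_dvd_of_pow_eq_one hb1
      have h3 : r ^ (a + 1) ∣ orderOf b := by
        have h4 : orderOf b ∣ r ^ (a + 1) := by
          rw [orderOf_dvd_iff_pow_eq_one, pow_succ', pow_mul, hb, ← orderOf_dvd_iff_pow_eq_one, hz]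
        obtain ⟨t, ht, hbt⟩ := (Nat.dvd_prime_pow hrP).1 h4
        have h5 : ¬ t ≤ a := by
          intro hta
          have h6 : b ^ (r ^ a) = 1 := by
            rw [← orderOf_dvd_iff_pow_eq_one, hbt]; exact pow_dvd_pow r hta
          have h7 : z ^ (r ^ (a - 1)) = 1 := by
            rw [← hb, ← pow_mul, ← pow_succ', Nat.sub_add_cancel ha0, h6]
          rw [← orderOf_dvd_iff_pow_eq_one, hz] at h7
          have := (Nat.pow_dvd_pow_iff_le_right hrP.one_lt).1 h7
          omega
        rw [hbt]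
        exact pow_dvd_pow r (by omega)
      have h8 : r ^ (a + 1) ∣ q + 1 := h3.trans h2
      exact pow_succ_padicValNat_not_dvd (by omega) h8
    clear_value k
    subst hn'
    obtain ⟨T, hT, hTr, hTd⟩ := exists_monomial (F := F) hz1 hrP.pos k
    have he : Even (r - 1) := by
      obtain ⟨s, hs⟩ := hrP.odd_of_ne_two hr2
      exact ⟨s, by omega⟩
    rw [he.neg_one_pow, one_mul, hzk] at hTd
    obtain ⟨W, hW, -, hWm⟩ := h T hT hTd ⟨z, hTr⟩ (by
      intro w hw
      apply hnr w
      obtain ⟨v, hv⟩ := exists_ne_zero (F := F) (n := k * r) (by omega)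
      have h2 : (T ^ r) v = w ^ r • v := by rw [hw, smul_pow_end, one_pow]; rfl
      rw [hTr] at h2
      change z • v = w ^ r • v at h2
      have h3 : (w ^ r - z) • v = 0 := by rw [sub_smul, ← h2, sub_self]
      rcases smul_eq_zero.1 h3 with h | h
      · linear_combination h
      · exact absurd h hv)
    apply hrm
    rw [← hWm]
    exact dvd_finrank_of_pow_eq hrP hnr hTr hW
  · intro h T hT hTd hTz hns
    obtain ⟨z, hTr⟩ := hTz
    have hB := frm_herm hσ hσ2 n
    have hV : Nd (hermForm n F q) (⊤ : Submodule F (Fin n → F)) := nd_herm (by omega)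
    have hfr : finrank F (Fin n → F) = n := by simp
    have hz1 := norm_of_scalar hσ hB hV (exists_ne_zero (by omega)) hT hTr
    have hz0 : z ≠ 0 := by rintro rfl; rw [zero_pow (by omega)] at hz1; exact zero_ne_one hz1
    by_cases hzr : ∃ w : F, w ^ r = z
    · obtain ⟨w, hw⟩ := hzr
      have hw1 := norm_of_root hr2 hF hrq hz1 hw
      have hw0 : w ≠ 0 := by rintro rfl; rw [zero_pow (by omega)] at hw1; exact zero_ne_one hw1
      have hwi : w⁻¹ ^ (q + 1) = 1 := by rw [inv_pow, hw1, inv_one]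
      have hy := isom_smul hσ hB hT hwi
      have hyr : (w⁻¹ • T) ^ r = 1 := by
        rw [smul_pow_end, hTr, smul_smul, ← hw, ← mul_pow, inv_mul_cancel₀ hw0, one_pow, one_smul]
      obtain ⟨W, hWi, hW, hWm⟩ := exists_inv_nd hr hr2 hB (kind_herm hne n) hV hy hyr (c := c)
        (fun _ _ _ _ => by rw [hc1]; exact one_dvd _)
        (blockNum_unitary hr2 hσ hσ2 (p := p) hF hi (by omega) hc) (m := m)
        (by rw [hfr]; omega) (fun h => absurd h hne) (by rw [hc1, Nat.mod_one, Nat.mod_one])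
      exact ⟨W, (inv_smul_iff (inv_ne_zero hw0)).1 hWi, hW, hWm⟩
    · push Not at hzr
      rcases h with ⟨j, hj⟩ | h
      · obtain ⟨W, hWi, hW, hWm⟩ := exists_nd_of_nonroot hr2 hB hV hT hz0 hTr hzr (j := j) (by rw [hfr]; omega)
        exact ⟨W, hWi, hW, by rw [hWm, hj]⟩
      · exfalso
        obtain ⟨k, hk, hkd⟩ := det_of_pow_eq hrP hzr hTr
        rw [hfr] at hk
        obtain ⟨s, hs⟩ := hrP.odd_of_ne_two hr2
        have hzk : z ^ k = 1 := by
          rw [hTd, hs, Nat.add_sub_cancel, pow_mul, neg_one_sq, one_pow, one_mul] at hkd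
          exact hkd.symm
        have hk0 : 0 < k := by
          rw [Nat.pos_iff_ne_zero]; rintro rfl; omega
        set g := Nat.gcd k (q + 1) with hg
        have hg0 : 0 < g := Nat.gcd_pos_of_pos_left _ hk0
        have hzg : z ^ g = 1 := by
          rw [← orderOf_dvd_iff_pow_eq_one]
          exact Nat.dvd_gcd (orderOf_dvd_of_pow_eq_one hzk) (orderOf_dvd_of_pow_eq_one hz1)
        have h1 : r * g ∣ q + 1 := by
          -- compare valuations
          obtain ⟨t, ht⟩ : g ∣ q + 1 := Nat.gcd_dvd_right _ _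
          have hrt : r ∣ t := by
            by_contra hrt
            have ht0 : t ≠ 0 := by rintro rfl; omega
            have h2 : padicValNat r (q + 1) = padicValNat r g := by
              rw [ht, padicValNat.mul hg0.ne' ht0, padicValNat.eq_zero_of_not_dvd hrt, add_zero]
            have h3 : padicValNat r g ≤ padicValNat r k := by
              exact padicValNat_dvd_iff_le (p := r) hk0.ne' |>.1 (pow_padicValNat_dvd.trans (Nat.gcd_dvd_left _ _))
            have h4 : padicValNat r n = padicValNat r k + 1 := by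
              rw [hk, padicValNat.mul hrP.ne_zero hk0.ne', padicValNat_self, add_comm]
            omega
          obtain ⟨t', rfl⟩ := hrt
          exact ⟨t', by rw [ht]; ring⟩
        obtain ⟨w, hw⟩ := exists_root_of_pow hg0 hzg (r := r) (by rw [hcard]; exact h1.mul_right _)
        exact hzr w hw

end Cfsg.Agent.H951
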