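import Cfsg.Agent.H951.UStat
/-!
# Involutions of `PSU_n(q)`, `q` odd, on nondegenerate `m`-spaces
-/

set_option autoImplicit false
set_option linter.unusedSectionVars false
set_option linter.unusedVariables false

namespace Cfsg.Agent.H951

open Module Polynomial Cfsg

variable {F : Type*} [Field F] [Fintype F] {q n m r : ℕ}

/-- `T² = w²` with `w^{q+1} = -1`: `w⁻¹ T` is an anti-isometric involution. -/
lemma anti_of_sq {σ : F →+* F} (hσ : ∀ a, σ a = a ^ q) {V : Type*} [AddCommGroup V] [Module F V] {B : V → V → F}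
    (hB : Frm σ 1 B) {T : Module.End F V} (hT : Isom B T) {w : F} (hw : w ^ (q + 1) = -1)
    (hT2 : T ^ 2 = w ^ 2 • 1) : (w⁻¹ • T) ^ 2 = 1 ∧ ∀ u v, B ((w⁻¹ • T) u) ((w⁻¹ • T) v) = -1 * B u v := by
  have hw0 : w ≠ 0 := by
    rintro rfl
    rw [zero_pow (Nat.succ_ne_zero _)] at hw
    have : (1 : F) = 0 := by linear_combination hw
    exact one_ne_zero this
  constructor
  · rw [smul_pow_end, hT2, smul_smul, ← mul_pow, inv_mul_cancel₀ hw0, one_pow, one_smul]
  · intro u v
    rw [LinearMap.smul_apply, LinearMap.smul_apply, hB.smul_left, hB.smul_right, hT, hσ]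
    have h1 : w⁻¹ ^ (q + 1) = -1 := by rw [inv_pow, hw]; norm_num
    rw [pow_succ'] at h1
    linear_combination (B u v) * h1

lemma sq_of_norm (hF : Fintype.card F = q ^ 2) (h2 : (2 : F) ≠ 0) {z : F} (hz : z ^ (q + 1) = 1) :
    ∃ w : F, w ^ 2 = z := by
  have hq := ClassicalGeometry.GUBasic.two_le hF
  have hz0 : z ≠ 0 := by rintro rfl; rw [zero_pow (by omega)] at hz; exact zero_ne_one hz
  have hqo : q % 2 = 1 := by
    by_contra hqe
    apply h2
    have h3 : ((Fintype.card F : ℕ) : F) = 0 := Nat.cast_card_eq_zero F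
    obtain ⟨p, hp⟩ := CharP.exists F
    obtain ⟨k, hpp, hk⟩ := FiniteField.card F p
    have h4 : 2 ∣ p ^ (k : ℕ) := by rw [← hk, hF]; exact dvd_pow (by omega) two_ne_zero
    have h5 := (Nat.prime_dvd_prime_iff_eq Nat.prime_two hpp).1 (Nat.prime_two.dvd_of_dvd_pow h4)
    have h6 : ((p : ℕ) : F) = 0 := CharP.cast_eq_zero F p
    rw [← h5] at h6
    exact_mod_cast h6
  refine exists_root_of_pow (by omega : 0 < q + 1) hz (r := 2) ?_
  rw [succ_dvd_card_sub hF, mul_comm]
  exact Nat.mul_dvd_mul_left _ (by omega)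

lemma odd_q_of_two (hF : Fintype.card F = q ^ 2) (h2 : (2 : F) ≠ 0) : q % 2 = 1 := by
  by_contra hqe
  apply h2
  obtain ⟨p, hp⟩ := CharP.exists F
  obtain ⟨k, hpp, hk⟩ := FiniteField.card F p
  have h4 : 2 ∣ p ^ (k : ℕ) := by rw [← hk, hF]; exact dvd_pow (by omega) two_ne_zero
  have h5 := (Nat.prime_dvd_prime_iff_eq Nat.prime_two hpp).1 (Nat.prime_two.dvd_of_dvd_pow h4)
  have h6 : ((p : ℕ) : F) = 0 := CharP.cast_eq_zero F p
  rw [← h5] at h6
  exact_mod_cast h6

theorem ustat_two (hF : Fintype.card F = q ^ 2) (h2 : (2 : F) ≠ 0) (hn : 3 ≤ n)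
    (hm : 1 ≤ m) (hmn : 2 * m < n) :
    UStat F n q m 2 ↔ (Odd n ∨ Even m ∨ (padicValNat 2 n ≤ padicValNat 2 (q + 1) ∧ q % 4 = 3)) := by
  have hq := ClassicalGeometry.GUBasic.two_le hF
  obtain ⟨σ, hσ, hσ2, hne⟩ := exists_sig hF
  have hqo := odd_q_of_two hF h2
  have hcard := succ_dvd_card_sub hF
  have hm1 : (-1 : F) ≠ 1 := by
    intro h; apply h2; linear_combination -h
  rw [ustat_iff]
  constructor
  · intro h
    by_contra hno
    push Not at hno
    obtain ⟨hno1, hno2, hno3⟩ := hno
    rw [Nat.not_odd_iff_even] at hno1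
    obtain ⟨k, hk⟩ := hno1
    obtain rfl : n = k * 2 := by omega
    -- the scalar
    obtain ⟨w, hw1, hw2⟩ : ∃ w : F, w ^ (q + 1) = -1 ∧ (-(w ^ 2)) ^ k = 1 := by
      by_cases hq4 : q % 4 = 3
      · have hlt : padicValNat 2 (q + 1) < padicValNat 2 (k * 2) := by
          by_contra h; exact hno3 (by omega) hq4
        set a := padicValNat 2 (q + 1) with ha
        have hk0 : k ≠ 0 := by omega
        have ha2 : 2 ≤ a := (padicValNat_dvd_iff_le (by omega)).1 (by omega : 2 ^ 2 ∣ q + 1)
        have h3 : 2 ^ a ∣ k := by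
          have h4 : 2 ^ (a + 1) ∣ k * 2 := (pow_dvd_pow 2 hlt).trans pow_padicValNat_dvd
          rw [pow_succ] at h4
          exact Nat.dvd_of_mul_dvd_mul_right two_pos h4
        have h5 : 2 ^ a ∣ q + 1 := pow_padicValNat_dvd
        have h6 : 2 ^ (a + 1) ∣ Fintype.card F - 1 := by
          rw [hcard, pow_succ]
          exact Nat.mul_dvd_mul h5 (by omega)
        obtain ⟨w, hw⟩ := exists_of_order (F := F) h6
        have h7 : (w ^ (q + 1)) ^ 2 = 1 := by
          rw [← pow_mul, ← orderOf_dvd_iff_pow_eq_one, hw, pow_succ]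
          exact Nat.mul_dvd_mul_right h5 2
        have h8 : w ^ (q + 1) ≠ 1 := by
          intro h8
          rw [← orderOf_dvd_iff_pow_eq_one, hw] at h8
          exact pow_succ_padicValNat_not_dvd (by omega) h8
        have h9 : (w ^ (q + 1) - 1) * (w ^ (q + 1) + 1) = 0 := by linear_combination h7
        refine ⟨w, ?_, ?_⟩
        · rcases mul_eq_zero.1 h9 with h | h
          · exact absurd (by linear_combination h) h8
          · linear_combination h
        · have h10 : Even k := (even_iff_two_dvd).2 ((dvd_pow_self 2 (by omega)).trans h3)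
          rw [h10.neg_pow, ← pow_mul, ← orderOf_dvd_iff_pow_eq_one, hw, pow_succ, mul_comm]
          exact Nat.mul_dvd_mul_left 2 h3
      · have hq1 : q % 4 = 1 := by omega
        have h6 : 4 ∣ Fintype.card F - 1 := by
          rw [hcard]; exact Dvd.dvd.mul_left (by omega) _
        obtain ⟨w, hw⟩ := exists_of_order (F := F) h6
        have h7 : w ^ 2 = -1 := by
          have h8 : w ^ 2 ≠ 1 := by
            intro h8
            rw [← orderOf_dvd_iff_pow_eq_one, hw] at h8
            omega
          have h9 : (w ^ 2) ^ 2 = 1 := by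
            rw [← pow_mul, ← orderOf_dvd_iff_pow_eq_one, hw]
          have h10 : (w ^ 2 - 1) * (w ^ 2 + 1) = 0 := by linear_combination h9
          rcases mul_eq_zero.1 h10 with h | h
          · exact absurd (by linear_combination h) h8
          · linear_combination h
        refine ⟨w, ?_, ?_⟩
        · obtain ⟨t, ht⟩ : ∃ t, q + 1 = 2 * (2 * t + 1) := ⟨q / 4, by omega⟩
          rw [ht, pow_mul, h7, pow_add, pow_mul]
          norm_num
        · rw [h7]; norm_num
    have hz1 : (w ^ 2) ^ (q + 1) = 1 := by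
      rw [← pow_mul, mul_comm, pow_mul, hw1]; norm_num
    obtain ⟨T, hT, hTr, hTd⟩ := exists_monomial (F := F) hz1 two_pos k
    have hTd' : LinearMap.det T = 1 := by
      rw [hTd]
      simpa using hw2
    have hB := frm_herm hσ hσ2 (k * 2)
    have hV : Nd (hermForm (k * 2) F q) (⊤ : Submodule F (Fin (k * 2) → F)) := nd_herm (by omega)
    obtain ⟨hy2, hy⟩ := anti_of_sq hσ hB hT hw1 hTr
    have hw0 : w ≠ 0 := by
      rintro rfl
      rw [zero_pow (Nat.succ_ne_zero _)] at hw1
      have : (1 : F) = 0 := by linear_combination hw1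
      exact one_ne_zero this
    obtain ⟨W, hW, hWn, hWm⟩ := h T hT hTd' ⟨_, hTr⟩ (by
      intro s hs
      have h3 : s ^ (q + 1) = 1 := norm_of_scalar hσ hB hV (exists_ne_zero (by omega)) (r := 1) hT (by rw [pow_one, hs])
      obtain ⟨v, hv⟩ := exists_ne_zero (F := F) (n := k * 2) (by omega)
      have h4 : (T ^ 2) v = s ^ 2 • v := by rw [hs, smul_pow_end, one_pow]; rfl
      rw [hTr] at h4
      change w ^ 2 • v = s ^ 2 • v at h4
      have h5 : (w ^ 2 - s ^ 2) • v = 0 := by rw [sub_smul, h4, sub_self]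
      have h6 : w ^ 2 - s ^ 2 = 0 := (smul_eq_zero.1 h5).resolve_right hv
      have h7 : (w - s) * (w + s) = 0 := by linear_combination h6
      have hev : Even (q + 1) := ⟨(q + 1) / 2, by omega⟩
      rcases mul_eq_zero.1 h7 with h | h
      · have : w = s := by linear_combination h
        rw [this, h3] at hw1
        exact hm1 hw1.symm
      · have : w = -s := by linear_combination h
        rw [this, hev.neg_pow, h3] at hw1
        exact hm1 hw1.symm)
    apply hno2
    rw [← hWm]
    exact even_of_anti h2 hy2 hy hB ((inv_smul_iff (inv_ne_zero hw0)).2 hW) hWn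
  · intro h T hT hTd hTz hns
    obtain ⟨z, hTr⟩ := hTz
    have hB := frm_herm hσ hσ2 n
    have hV : Nd (hermForm n F q) (⊤ : Submodule F (Fin n → F)) := nd_herm (by omega)
    have hfr : finrank F (Fin n → F) = n := by simp
    have hz1 := norm_of_scalar hσ hB hV (exists_ne_zero (by omega)) hT hTr
    obtain ⟨w, rfl⟩ := sq_of_norm hF h2 hz1
    have hw0 : w ≠ 0 := by
      rintro rfl
      rw [zero_pow two_ne_zero, zero_pow (by omega)] at hz1
      exact zero_ne_one hz1
    have h9 : (w ^ (q + 1) - 1) * (w ^ (q + 1) + 1) = 0 := by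
      have : (w ^ (q + 1)) ^ 2 = 1 := by rw [← pow_mul, mul_comm, pow_mul, hz1]
      linear_combination this
    rcases mul_eq_zero.1 h9 with hw | hw
    · have hw1 : w ^ (q + 1) = 1 := by linear_combination hw
      have hwi : w⁻¹ ^ (q + 1) = 1 := by rw [inv_pow, hw1, inv_one]
      have hy := isom_smul hσ hB hT hwi
      have hyr : (w⁻¹ • T) ^ 2 = 1 := by
        rw [smul_pow_end, hTr, smul_smul, ← mul_pow, inv_mul_cancel₀ hw0, one_pow, one_smul]
      obtain ⟨W, hWi, hW, hWm⟩ := exists_nd_of_invol h2 hyr hy hB (kind_herm hne n) hV (m := m)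
        (fun h => absurd h hne) (by rw [hfr]; omega)
      exact ⟨W, (inv_smul_iff (inv_ne_zero hw0)).1 hWi, hW, hWm⟩
    · have hw1 : w ^ (q + 1) = -1 := by linear_combination hw
      obtain ⟨hy2, hy⟩ := anti_of_sq hσ hB hT hw1 hTr
      have htop := finrank_of_anti h2 hy2 hy hB (W := ⊤) (fun _ _ => trivial) hV
      rw [finrank_top, hfr, top_inf_eq, top_inf_eq] at htop
      rcases h with h | h | ⟨h, hq3⟩
      · exfalso
        rw [Nat.odd_iff] at h
        omega
      · obtain ⟨W, hWi, hW, hWm⟩ := exists_nd_of_anti h2 hy2 hy hB hV h (by rw [hfr]; omega)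
        exact ⟨W, (inv_smul_iff (inv_ne_zero hw0)).1 hWi, hW, hWm⟩
      · exfalso
        -- determinant
        have hdy := det_of_invol h2 hy2
        rw [LinearMap.det_smul, hTd, mul_one, hfr] at hdy
        obtain ⟨l, hl⟩ : ∃ l, n = 2 * l := ⟨finrank F ↥(cm (w⁻¹ • T)), by omega⟩
        have hfl : finrank F ↥(cm (w⁻¹ • T)) = l := by omega
        rw [hfl] at hdy
        have hwn : w ^ n = (-1) ^ l := by
          have h3 : w⁻¹ ^ n * w ^ n = 1 := by rw [← mul_pow, inv_mul_cancel₀ hw0, one_pow]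
          rw [hdy] at h3
          have h4 : ((-1 : F) ^ l) * ((-1) ^ l) = 1 := by rw [← mul_pow]; norm_num
          linear_combination ((-1 : F) ^ l) * h3 - (w ^ n) * h4
        set a := padicValNat 2 (q + 1) with ha
        set b := padicValNat 2 n with hb
        obtain ⟨s, hs⟩ : 2 ^ a ∣ q + 1 := pow_padicValNat_dvd
        obtain ⟨n', hn'⟩ : 2 ^ b ∣ n := pow_padicValNat_dvd
        have hso : s % 2 = 1 := by
          by_contra hse
          have : 2 ^ (a + 1) ∣ q + 1 := by
            rw [hs, pow_succ]; exact Nat.mul_dvd_mul_left _ (by omega)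
          exact pow_succ_padicValNat_not_dvd (by omega) this
        have hn'o : n' % 2 = 1 := by
          by_contra hse
          have : 2 ^ (b + 1) ∣ n := by
            rw [pow_succ, hn']; exact Nat.mul_dvd_mul_left _ (by omega)
          exact pow_succ_padicValNat_not_dvd (by omega) this
        have ha2 : 2 ≤ a := (padicValNat_dvd_iff_le (by omega)).1 (by omega : 2 ^ 2 ∣ q + 1)
        have h5 : w ^ (n * (2 ^ (a - b) * s)) = -1 := by
          have e1 : n * (2 ^ (a - b) * s) = (q + 1) * n' := by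
            rw [hs, hn']
            have : 2 ^ a = 2 ^ b * 2 ^ (a - b) := by rw [← pow_add]; congr 1; omega
            rw [this]; ring
          rw [e1, pow_mul, hw1]
          exact (Nat.odd_iff.2 hn'o).neg_one_pow
        have h6 : w ^ (n * (2 ^ (a - b) * s)) = 1 := by
          rw [pow_mul, hwn, ← pow_mul]
          apply Even.neg_one_pow
          have e2 : 2 * (l * (2 ^ (a - b) * s)) = 2 ^ a * (n' * s) := by
            have : 2 ^ a = 2 ^ b * 2 ^ (a - b) := by rw [← pow_add]; congr 1; omega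
            calc 2 * (l * (2 ^ (a - b) * s)) = (2 * l) * (2 ^ (a - b) * s) := by ring
              _ = (2 ^ b * n') * (2 ^ (a - b) * s) := by rw [← hl, ← hn']
              _ = 2 ^ a * (n' * s) := by rw [this]; ring
          obtain ⟨a', ha'⟩ : ∃ a', a = a' + 2 := ⟨a - 2, by omega⟩
          have e3 : 2 * (l * (2 ^ (a - b) * s)) = 2 * (2 * (2 ^ a' * (n' * s))) := by
            rw [e2]
            have : 2 ^ a = 2 ^ a' * 4 := by rw [ha', pow_add]; norm_num
            rw [this]; ring
          have e4 := Nat.eq_of_mul_eq_mul_left two_pos e3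
          rw [e4]
          exact even_two_mul _
        rw [h5] at h6
        exact hm1 h6

end Cfsg.Agent.H951
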